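import Mathlib
import Cfsg.Prelude.Def_PLocal
import Cfsg.Prelude.Def_LocalEven
import Cfsg.Agent.Lib.Helper12.QuarticFilt

set_option autoImplicit false

/-! The stability-group filtration argument along an arbitrary normal series.  Let `T` be a
normal subgroup of `G`, `Q ≤ T` with `[T, Q] ≤ Z ≤ Z(Q)` and `C_T(Q) ≤ Q`, and let
`Q = N 0 ≥ N 1 ≥ …` be a series of normal subgroups of `G` reaching `1`, centralized factorwise
by `T`, each of whose factors is killed by `i` commutations with `D`, and by `j` commutations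
when it lies inside `Z`.  Then every chief factor of `G` inside `T` is killed by `i + j - 1`
commutations with `D`. -/

namespace Cfsg.Agent.Lib.Helper12.ChiefFilt

open Cfsg Cfsg.Agent.Lib.Helper12.QuarticFilt
open scoped commutatorElement

theorem iter_bot {L : Type*} [Group L] (D : Subgroup L) (n : ℕ) :
    iterCommutator (⊥ : Subgroup L) D n = ⊥ := by
  induction n with
  | zero => rfl
  | succ n ih =>
    show ⁅iterCommutator (⊥ : Subgroup L) D n, D⁆ = ⊥
    rw [ih, Subgroup.commutator_bot_left]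

/-- A chief factor cut down by a normal subgroup that covers it. -/
theorem chief_inf {L : Type*} [Group L] {U V : Subgroup L} (h : IsChiefFactor U V)
    (Q : Subgroup L) [hQ : Q.Normal] (hcov : (U ⊓ Q) ⊔ V = U) : IsChiefFactor (U ⊓ Q) (V ⊓ Q) := by
  obtain ⟨hVU, hUn, hVn, hmin⟩ := h
  haveI := hUn
  haveI := hVn
  refine ⟨lt_of_le_of_ne (inf_le_inf_right Q hVU.le) ?_, inferInstance, inferInstance, ?_⟩
  · intro heq
    have h1 : U ⊓ Q ≤ V := heq ▸ inf_le_left
    rw [sup_eq_right.mpr h1] at hcov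
    exact hVU.ne hcov
  · intro N' hN' h1 h2
    haveI := hN'
    rcases hmin (N' ⊔ V) inferInstance le_sup_right (sup_le (h2.trans inf_le_left) hVU.le)
      with h3 | h3
    · left
      exact le_antisymm (le_inf (h3 ▸ le_sup_left) (h2.trans inf_le_right)) h1
    · right
      refine le_antisymm h2 ?_
      intro x hx
      have hxU : x ∈ N' ⊔ V := h3 ▸ hx.1
      obtain ⟨n, hn, v, hv, rfl⟩ := Subgroup.mem_sup_of_normal_right.mp hxU
      have hvQ : v ∈ Q := by
        have e : v = n⁻¹ * (n * v) := by group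
        rw [e]
        exact Q.mul_mem (Q.inv_mem (h2 hn).2) hx.2
      exact N'.mul_mem hn (h1 ⟨hv, hvQ⟩)

/-- A nilpotent normal subgroup centralizes every chief factor it contains. -/
theorem chief_central {L : Type*} [Group L] {U V : Subgroup L} (h : IsChiefFactor U V)
    (T : Subgroup L) [hT : T.Normal] (hTn : ∃ c : ℕ, T.lowerCentralSeries c = ⊥) (hUT : U ≤ T) :
    ⁅U, T⁆ ≤ V := by
  obtain ⟨hVU, hUn, hVn, hmin⟩ := h
  haveI := hUn
  haveI := hVn
  have hUTU : ⁅U, T⁆ ≤ U := Subgroup.commutator_le_left U T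
  rcases hmin (⁅U, T⁆ ⊔ V) inferInstance le_sup_right (sup_le hUTU hVU.le) with h1 | h1
  · rw [← h1]; exact le_sup_left
  · exfalso
    have h2 : ∀ k : ℕ, U ≤ iterCommutator U T k ⊔ V := by
      intro k
      induction k with
      | zero => exact le_sup_left
      | succ k ih =>
        calc U = ⁅U, T⁆ ⊔ V := h1.symm
          _ ≤ ⁅iterCommutator U T k ⊔ V, T⁆ ⊔ V := sup_le_sup_right (Subgroup.commutator_mono ih le_rfl) V
          _ ≤ (⁅iterCommutator U T k, T⁆ ⊔ V) ⊔ V := sup_le_sup_right (comm_sup_le _ V T) V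
          _ = iterCommutator U T (k + 1) ⊔ V := by rw [sup_assoc, sup_idem]; rfl
    have h3 : ∀ k : ℕ, iterCommutator U T k ≤ T.lowerCentralSeries k := by
      intro k
      induction k with
      | zero => exact hUT
      | succ k ih => exact Subgroup.commutator_mono ih le_rfl
    obtain ⟨c, hc⟩ := hTn
    have h4 := h2 c
    have h5 : iterCommutator U T c = ⊥ := by rw [eq_bot_iff, ← hc]; exact h3 c
    rw [h5, bot_sup_eq] at h4
    exact hVU.not_ge h4

section series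

variable {G : Type*} [Group G] (T Q Z D : Subgroup G) (N : ℕ → Subgroup G)

theorem N_antitone (hNanti : ∀ m, N (m + 1) ≤ N m) {m n : ℕ} (hmn : m ≤ n) : N n ≤ N m := by
  induction hmn with
  | refl => exact le_rfl
  | step _ ih => exact (hNanti _).trans ih

/-- the main computation: one commutator with `D` raises the filtration degree by one -/
theorem step_mem' [hT : T.Normal] (hNn : ∀ m, (N m).Normal) (hNanti : ∀ m, N (m + 1) ≤ N m)
    (hN0 : N 0 = Q) (hNT : ∀ m, ⁅N m, T⁆ ≤ N (m + 1))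
    (hTQ : ⁅T, Q⁆ ≤ Z) (hZc : Z ≤ Subgroup.centralizer (Q : Set G))
    (e₀ k d : ℕ) (t h : G) (ht : t ∈ T) (hh : h ∈ D)
    (hcond : ∀ m r : ℕ, ∀ a ∈ iterCommutator (N m) D r,
      ⁅a, t⁆ ∈ iterCommutator (N (m + k)) D (d + r - e₀) ⊔ N (m + k + 1))
    (m r : ℕ) (a : G) (ha : a ∈ iterCommutator (N m) D r) :
    ⁅a, ⁅t, h⁆⁆ ∈ iterCommutator (N (m + k)) D (d + 1 + r - e₀) ⊔ N (m + k + 1) := by
  haveI hNn' : (N (m + k + 1)).Normal := hNn _
  haveI hYn : (N (m + k)).Normal := hNn _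
  haveI hVmn : (N m).Normal := hNn _
  have hdinvY : DInv D (N (m + k)) := dinv_of_normal D _
  have hdinvV : DInv D (N m) := dinv_of_normal D _
  have htgt : ∀ s : ℕ, iterCommutator (N (m + k)) D s ⊔ N (m + k + 1) ≤ N (m + k) :=
    fun s => sup_le (iter_le_self hdinvY s) (hNanti _)
  have hy : ⁅a, t⁆ ∈ iterCommutator (N (m + k)) D (d + r - e₀) ⊔ N (m + k + 1) :=
    hcond m r a ha
  have ha' : ⁅a⁻¹, h⁻¹⁆ ∈ iterCommutator (N m) D (r + 1) :=
    Subgroup.commutator_mem_commutator (Subgroup.inv_mem _ ha) (D.inv_mem hh)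
  have hy' : ⁅⁅a⁻¹, h⁻¹⁆, t⁆ ∈
      iterCommutator (N (m + k)) D (d + 1 + r - e₀) ⊔ N (m + k + 1) := by
    have h1 := hcond m (r + 1) _ ha'
    have e : d + (r + 1) - e₀ = d + 1 + r - e₀ := by omega
    rw [e] at h1
    exact h1
  have hNQ : ∀ s, N s ≤ Q := fun s => hN0 ▸ N_antitone N hNanti (Nat.zero_le s)
  have haA : a ∈ Q := hNQ m (iter_le_self hdinvV r ha)
  have ha'A : ⁅a⁻¹, h⁻¹⁆ ∈ Q := hNQ m (iter_le_self hdinvV (r + 1) ha')
  have hy'Z : ⁅⁅a⁻¹, h⁻¹⁆, t⁆ ∈ Z := by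
    apply hTQ
    rw [Subgroup.commutator_comm]
    exact Subgroup.commutator_mem_commutator ha'A ht
  have hcomm : a * ⁅⁅a⁻¹, h⁻¹⁆, t⁆ * a⁻¹ = ⁅⁅a⁻¹, h⁻¹⁆, t⁆ := by
    have h1 := (Subgroup.mem_centralizer_iff.mp (hZc hy'Z)) a haA
    rw [h1, mul_inv_cancel_right]
  rw [step_identity, hcomm]
  clear hcomm hy'Z
  generalize hy'def : ⁅⁅a⁻¹, h⁻¹⁆, t⁆ = y' at hy' ⊢
  generalize hydef : ⁅a, t⁆ = y at hy ⊢
  obtain ⟨x, hxdef⟩ : ∃ x : G, x = t * (h * t * h⁻¹)⁻¹ := ⟨_, rfl⟩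
  rw [← hxdef]
  have hxT : x ∈ T := by
    rw [hxdef]
    exact T.mul_mem ht (T.inv_mem (hT.conj_mem t ht h))
  have hyY : y ∈ N (m + k) := htgt _ hy
  have hy'Y : y' ∈ N (m + k) := htgt _ hy'
  have hq : h * (y' * y)⁻¹ * h⁻¹ ∈ N (m + k) :=
    hYn.conj_mem _ (Subgroup.inv_mem _ (Subgroup.mul_mem _ hy'Y hyY)) h
  have hxq : ⁅x, h * (y' * y)⁻¹ * h⁻¹⁆ ∈ N (m + k + 1) := by
    apply hNT (m + k)
    rw [Subgroup.commutator_comm]
    exact Subgroup.commutator_mem_commutator hxT hq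
  have e : y * (x * (h * (y' * y)⁻¹ * h⁻¹) * x⁻¹) =
      (y * ⁅x, h * (y' * y)⁻¹ * h⁻¹⁆ * y⁻¹) * (⁅y, h⁆ * (h * y'⁻¹ * h⁻¹)) := by
    simp only [commutatorElement_def]
    group
  rw [e]
  have hdinvW : DInv D (iterCommutator (N (m + k)) D (d + 1 + r - e₀) ⊔ N (m + k + 1)) :=
    sup_dinv (dinv_iter hdinvY _)
  refine Subgroup.mul_mem _ (Subgroup.mem_sup_right (hNn'.conj_mem _ hxq y))
    (Subgroup.mul_mem _ ?_ (hdinvW h hh _ (Subgroup.inv_mem _ hy')))
  obtain ⟨w, hw, n, hn, hwn⟩ := Subgroup.mem_sup_of_normal_right.mp hy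
  rw [← hwn]
  have e2 : ⁅w * n, h⁆ = w * ⁅n, h⁆ * w⁻¹ * ⁅w, h⁆ := by
    simp only [commutatorElement_def]; group
  rw [e2]
  have hnh : ⁅n, h⁆ ∈ N (m + k + 1) := by
    have e3 : ⁅n, h⁆ = n * (h * n⁻¹ * h⁻¹) := by
      simp only [commutatorElement_def]; group
    rw [e3]
    exact Subgroup.mul_mem _ hn (hNn'.conj_mem _ (Subgroup.inv_mem _ hn) h)
  have hwh : ⁅w, h⁆ ∈ iterCommutator (N (m + k)) D (d + 1 + r - e₀) := by
    have h1 : ⁅w, h⁆ ∈ iterCommutator (N (m + k)) D (d + r - e₀ + 1) :=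
      Subgroup.commutator_mem_commutator hw hh
    exact iter_antitone hdinvY (by omega) h1
  exact Subgroup.mul_mem _ (Subgroup.mem_sup_right (hNn'.conj_mem _ hnh w))
    (Subgroup.mem_sup_left hwh)

/-- the filtration theorem along a normal series -/
theorem filt_chief [hT : T.Normal] [hQn : Q.Normal] (i j : ℕ) (hi : 1 ≤ i) (hj : 1 ≤ j)
    (hNn : ∀ m, (N m).Normal) (hNanti : ∀ m, N (m + 1) ≤ N m) (hN0 : N 0 = Q)
    (hNT : ∀ m, ⁅N m, T⁆ ≤ N (m + 1))
    (hNi : ∀ m, iterCommutator (N m) D i ≤ N (m + 1))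
    (hNj : ∀ m, N m ≤ Z → iterCommutator (N m) D j ≤ N (m + 1))
    (hNZ : ∀ m, Z ≤ N (m + 1) ∨ N m ≤ Z)
    (hNc : ∃ c, N c = ⊥)
    (hTQ : ⁅T, Q⁆ ≤ Z) (hZc : Z ≤ Subgroup.centralizer (Q : Set G))
    (hTC : T ⊓ Subgroup.centralizer (Q : Set G) ≤ Q)
    (hQi : ∀ U V : Subgroup G, IsChiefFactor U V → U ≤ Q → iterCommutator U D i ≤ V)
    (U V : Subgroup G) (hUV : IsChiefFactor U V) (hUT : U ≤ T) :
    iterCommutator U D (i + j - 1) ≤ V := by
  have hNQ : ∀ s, N s ≤ Q := fun s => hN0 ▸ N_antitone N hNanti (Nat.zero_le s)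
  have hMex : ∀ k : ℕ, ∃ M : Subgroup G, ∀ t, t ∈ M ↔
      t ∈ T ∧ ∀ m : ℕ, ∀ a ∈ N m, ⁅a, t⁆ ∈ N (m + k) := by
    intro k
    exact exists_commSub T (fun m => N m) (fun m => N (m + k))
      (fun m t _ y hy => (hNn (m + k)).conj_mem y hy t)
  choose M hM using hMex
  have hFex : ∀ k d : ℕ, ∃ F : Subgroup G, ∀ t, t ∈ F ↔
      t ∈ T ∧ ∀ q : ℕ × ℕ, ∀ a ∈ iterCommutator (N q.1) D q.2,
        ⁅a, t⁆ ∈ iterCommutator (N (q.1 + k)) D (d + q.2 - (i - 1)) ⊔ N (q.1 + k + 1) := by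
    intro k d
    refine exists_commSub T (fun q : ℕ × ℕ => iterCommutator (N q.1) D q.2)
      (fun q : ℕ × ℕ => iterCommutator (N (q.1 + k)) D (d + q.2 - (i - 1)) ⊔
        N (q.1 + k + 1)) ?_
    intro q t ht y hy
    have e : t * y * t⁻¹ = ⁅t, y⁆ * y := by simp only [commutatorElement_def]; group
    rw [e]
    refine Subgroup.mul_mem _ (Subgroup.mem_sup_right ?_) hy
    haveI := hNn (q.1 + k)
    have hyY : y ∈ N (q.1 + k) :=
      (sup_le (iter_le_self (dinv_of_normal D _) _) (hNanti _)) hy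
    apply hNT (q.1 + k)
    rw [Subgroup.commutator_comm]
    exact Subgroup.commutator_mem_commutator ht hyY
  choose F hF using hFex
  have hMn : ∀ k, (M k).Normal := by
    intro k
    refine ⟨fun t ht g => ?_⟩
    rw [hM] at ht ⊢
    refine ⟨hT.conj_mem t ht.1 g, fun m a ha => ?_⟩
    have e : ⁅a, g * t * g⁻¹⁆ = g * ⁅g⁻¹ * a * g, t⁆ * g⁻¹ := by
      simp only [commutatorElement_def]; group
    rw [e]
    refine (hNn (m + k)).conj_mem _ (ht.2 m _ ?_) g
    have h1 := (hNn m).conj_mem a ha g⁻¹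
    rw [inv_inv] at h1
    exact h1
  have hM1 : M 1 = T := by
    ext t
    rw [hM]
    exact ⟨fun h => h.1, fun ht => ⟨ht, fun m a ha =>
      hNT m (Subgroup.commutator_mem_commutator ha ht)⟩⟩
  have hMF : ∀ k, M k ≤ F k 0 := by
    intro k t ht
    rw [hM] at ht
    rw [hF]
    refine ⟨ht.1, ?_⟩
    rintro ⟨m, r⟩ a ha
    show ⁅a, t⁆ ∈ iterCommutator (N (m + k)) D (0 + r - (i - 1)) ⊔ N (m + k + 1)
    replace ha : a ∈ iterCommutator (N m) D r := ha
    haveI := hNn m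
    by_cases hr : r ≤ i - 1
    · have e : 0 + r - (i - 1) = 0 := by omega
      rw [e]
      exact Subgroup.mem_sup_left (ht.2 m a (iter_le_self (dinv_of_normal D _) r ha))
    · have h1 : a ∈ N (m + 1) :=
        hNi m (iter_antitone (dinv_of_normal D _) (by omega) ha)
      have h2 := ht.2 (m + 1) a h1
      have e : m + 1 + k = m + k + 1 := by omega
      rw [e] at h2
      exact Subgroup.mem_sup_right h2
  have hFD : ∀ k d, ⁅F k d, D⁆ ≤ F k (d + 1) := by
    intro k d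
    rw [Subgroup.commutator_le]
    intro t ht h hh
    rw [hF] at ht ⊢
    refine ⟨?_, ?_⟩
    · have e : ⁅t, h⁆ = t * (h * t⁻¹ * h⁻¹) := by
        simp only [commutatorElement_def]; group
      rw [e]
      exact T.mul_mem ht.1 (hT.conj_mem _ (T.inv_mem ht.1) h)
    · rintro ⟨m, r⟩ a ha
      exact step_mem' T Q Z D N hNn hNanti hN0 hNT hTQ hZc (i - 1) k d t h ht.1 hh
        (fun m r a ha => ht.2 (m, r) a ha) m r a ha
  have hFiter : ∀ k d, iterCommutator (F k 0) D d ≤ F k d := by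
    intro k d
    induction d with
    | zero => exact le_rfl
    | succ d ih => exact (Subgroup.commutator_mono ih le_rfl).trans (hFD k d)
  have hFM : ∀ k, F k (i + j - 1) ≤ M (k + 1) := by
    intro k t ht
    rw [hF] at ht
    rw [hM]
    refine ⟨ht.1, fun m a ha => ?_⟩
    have h1 : ⁅a, t⁆ ∈ iterCommutator (N (m + k)) D (i + j - 1 + 0 - (i - 1)) ⊔ N (m + k + 1) :=
      ht.2 (m, 0) a ha
    have e : i + j - 1 + 0 - (i - 1) = j := by omega
    rw [e] at h1
    rcases hNZ (m + k) with h2 | h2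
    · apply h2
      apply hTQ
      rw [Subgroup.commutator_comm]
      exact Subgroup.commutator_mem_commutator (hNQ m ha) ht.1
    · exact (sup_le (hNj (m + k) h2) le_rfl) h1
  have hMstep : ∀ k, iterCommutator (M k) D (i + j - 1) ≤ M (k + 1) := fun k =>
    (iter_mono (hMF k) D _).trans ((hFiter k _).trans (hFM k))
  obtain ⟨c, hc⟩ := hNc
  have hMc : M c ≤ Q := by
    intro t ht
    rw [hM] at ht
    have h1 : t ∈ Subgroup.centralizer (Q : Set G) := by
      rw [Subgroup.mem_centralizer_iff]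
      intro a ha
      have h2 := ht.2 0 a (hN0 ▸ ha)
      have e : 0 + c = c := by omega
      rw [e, hc, Subgroup.mem_bot] at h2
      exact commutatorElement_eq_one_iff_mul_comm.mp h2
    exact hTC ⟨ht.1, h1⟩
  have hMc' : M (c + 1) ≤ Q := by
    intro t ht
    rw [hM] at ht
    have h1 : t ∈ Subgroup.centralizer (Q : Set G) := by
      rw [Subgroup.mem_centralizer_iff]
      intro a ha
      have h2 := ht.2 0 a (hN0 ▸ ha)
      have h3 : N (0 + (c + 1)) ≤ N c := N_antitone N hNanti (by omega)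
      have h4 := h3 h2
      rw [hc, Subgroup.mem_bot] at h4
      exact commutatorElement_eq_one_iff_mul_comm.mp h4
    exact hTC ⟨ht.1, h1⟩
  have hchain : ∀ k : ℕ, (U ⊓ M (k + 1)) ⊔ V = U ∨ iterCommutator U D (i + j - 1) ≤ V := by
    intro k
    induction k with
    | zero =>
      left
      rw [hM1, inf_eq_left.mpr hUT]
      exact sup_eq_left.mpr hUV.1.le
    | succ k ih =>
      rcases ih with ih | ih
      · haveI := hMn (k + 2)
        rcases chief_dichotomy hUV (M (k + 2)) with h1 | h1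
        · right
          exact chain_step hUV D (M (k + 2)) (M (k + 1)) _ (hMstep (k + 1)) ih h1
        · left
          exact h1
      · right; exact ih
  rcases hchain c with h1 | h1
  · -- the chief factor is covered by `Q`
    have hVn : V.Normal := hUV.2.2.1
    haveI := hVn
    have hcov : (U ⊓ Q) ⊔ V = U := by
      apply le_antisymm (sup_le inf_le_left hUV.1.le)
      conv_lhs => rw [← h1]
      exact sup_le_sup_right (inf_le_inf_left U hMc') V
    have h2 := hQi _ _ (chief_inf hUV Q hcov) inf_le_right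
    have h3 : iterCommutator U D i ≤ V := by
      conv_lhs => rw [← hcov]
      exact (iter_sup_le _ V D i).trans (sup_le (h2.trans inf_le_left) le_rfl)
    exact iter_le_of_le D U V (by omega) h3
  · exact h1

end series

/-! ### a chief series through a given normal subgroup -/

theorem next_exists {L : Type*} [Group L] [Finite L] (Z : Subgroup L) [hZ : Z.Normal]
    (X : Subgroup L) (hX : X.Normal) (hXZ : Z ≤ X ∨ X ≤ Z) :
    ∃ M : Subgroup L, M.Normal ∧ M ≤ X ∧ (Z ≤ M ∨ M ≤ Z) ∧ (Z ≤ M ∨ X ≤ Z) ∧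
      (X = ⊥ → M = ⊥) ∧ (X ≠ ⊥ → IsChiefFactor X M) := by
  by_cases hX0 : X = ⊥
  · exact ⟨⊥, inferInstance, bot_le, Or.inr bot_le, Or.inr (hX0 ▸ bot_le), fun _ => rfl,
      fun h => absurd hX0 h⟩
  · obtain ⟨B, hBn, hBX, hBZ⟩ : ∃ B : Subgroup L, B.Normal ∧ B < X ∧ (Z ≤ B ∨ X ≤ Z) := by
      by_cases h : Z ≤ X ∧ X ≠ Z
      · exact ⟨Z, hZ, lt_of_le_of_ne h.1 (Ne.symm h.2), Or.inl le_rfl⟩
      · refine ⟨⊥, inferInstance, bot_lt_iff_ne_bot.mpr hX0, Or.inr ?_⟩
        rcases hXZ with h1 | h1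
        · by_contra h2
          exact h ⟨h1, fun h3 => h2 (h3 ▸ le_rfl)⟩
        · exact h1
    haveI : Nonempty {M : Subgroup L // M.Normal ∧ B ≤ M ∧ M < X} := ⟨⟨B, hBn, le_rfl, hBX⟩⟩
    obtain ⟨⟨M, hMn, hBM, hMX⟩, hmax⟩ := Finite.exists_max
      (fun M : {M : Subgroup L // M.Normal ∧ B ≤ M ∧ M < X} => Nat.card ↥M.1)
    have hZM : Z ≤ M ∨ X ≤ Z := hBZ.imp (fun h => h.trans hBM) id
    refine ⟨M, hMn, hMX.le, ?_, hZM, fun h => absurd h hX0, fun _ => ⟨hMX, hX, hMn, ?_⟩⟩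
    · rcases hZM with h | h
      · exact Or.inl h
      · exact Or.inr (hMX.le.trans h)
    · intro N' hN' h1 h2
      by_cases h3 : N' = X
      · exact Or.inr h3
      · left
        have h4 := hmax ⟨N', hN', hBM.trans h1, lt_of_le_of_ne h2 h3⟩
        exact (Subgroup.eq_of_le_of_card_ge h1 h4).symm

theorem exists_chief_series {L : Type*} [Group L] [Finite L] (Z Q : Subgroup L) [hZ : Z.Normal]
    [hQ : Q.Normal] (hZQ : Z ≤ Q) :
    ∃ N : ℕ → Subgroup L, N 0 = Q ∧ (∀ m, (N m).Normal) ∧ (∀ m, N (m + 1) ≤ N m) ∧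
      (∀ m, Z ≤ N (m + 1) ∨ N m ≤ Z) ∧ (∀ m, N m = ⊥ ∨ IsChiefFactor (N m) (N (m + 1))) ∧
      ∃ c, N c = ⊥ := by
  have key := fun (X : Subgroup L) (hX : X.Normal) (hXZ : Z ≤ X ∨ X ≤ Z) =>
    next_exists Z X hX hXZ
  choose! nxt h1 h2 h3 h4 h5 h6 using key
  have hinv : ∀ m, (nxt^[m] Q).Normal ∧ (Z ≤ nxt^[m] Q ∨ nxt^[m] Q ≤ Z) := by
    intro m
    induction m with
    | zero => exact ⟨hQ, Or.inl hZQ⟩
    | succ m ih =>
      rw [Function.iterate_succ_apply']
      exact ⟨h1 _ ih.1 ih.2, h3 _ ih.1 ih.2⟩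
  refine ⟨fun m => nxt^[m] Q, rfl, fun m => (hinv m).1, fun m => ?_, fun m => ?_, fun m => ?_, ?_⟩
  · show nxt^[m + 1] Q ≤ nxt^[m] Q
    rw [Function.iterate_succ_apply']
    exact h2 _ (hinv m).1 (hinv m).2
  · show Z ≤ nxt^[m + 1] Q ∨ nxt^[m] Q ≤ Z
    rw [Function.iterate_succ_apply']
    exact h4 _ (hinv m).1 (hinv m).2
  · show nxt^[m] Q = ⊥ ∨ IsChiefFactor (nxt^[m] Q) (nxt^[m + 1] Q)
    rw [Function.iterate_succ_apply']
    by_cases h : nxt^[m] Q = ⊥
    · exact Or.inl h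
    · exact Or.inr (h6 _ (hinv m).1 (hinv m).2 h)
  · have hcard : ∀ m, nxt^[m] Q = ⊥ ∨ Nat.card ↥(nxt^[m] Q) + m ≤ Nat.card ↥Q := by
      intro m
      induction m with
      | zero => right; simp
      | succ m ih =>
        rw [Function.iterate_succ_apply']
        by_cases h : nxt^[m] Q = ⊥
        · left; exact h5 _ (hinv m).1 (hinv m).2 h
        · right
          have hlt : nxt (nxt^[m] Q) < nxt^[m] Q := (h6 _ (hinv m).1 (hinv m).2 h).1
          have hc : Nat.card ↥(nxt (nxt^[m] Q)) < Nat.card ↥(nxt^[m] Q) :=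
            lt_of_not_ge (fun hge => hlt.ne (Subgroup.eq_of_le_of_card_ge hlt.le hge))
          rcases ih with ih | ih
          · exact absurd ih h
          · omega
    refine ⟨Nat.card ↥Q, ?_⟩
    rcases hcard (Nat.card ↥Q) with h | h
    · exact h
    · exfalso
      have h0 : 0 < Nat.card ↥(nxt^[Nat.card ↥Q] Q) := Nat.card_pos
      omega

end Cfsg.Agent.Lib.Helper12.ChiefFilt
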