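import Mathlib
import Cfsg.Agent.Lib.Helper12.EngelTransfer

set_option autoImplicit false

/-! Transfer lemmas with elementwise Engel conditions: for a subgroup `M` containing a Sylow
`p`-subgroup `S` and the normalizer of the subgroup generated by a fusion-closed set `𝒟` of
`(p - 1)`-Engel elements on a normal `p`-subgroup `N`, one has `N ∩ X' ≤ M'`. -/

namespace Cfsg.Agent.Lib.Helper12.EngelFocal

open Cfsg Cfsg.Agent.Lib.Helper12.SylowBasic Cfsg.Agent.Lib.Helper12.Alperin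
  Cfsg.Agent.Lib.Helper12.EngelNorm Cfsg.Agent.Lib.Helper12.EngelTransfer
  Cfsg.Agent.Lib.Helper12.SecTransfer
open scoped Pointwise commutatorElement

/-- the Engel map of a conjugate -/
theorem engel_conj {X : Type*} [Group X] (d g : X) (n : ℕ) (y : X) :
    (fun y : X => y⁻¹ * (g⁻¹ * d * g)⁻¹ * y * (g⁻¹ * d * g))^[n] y =
      g⁻¹ * ((fun y : X => y⁻¹ * d⁻¹ * y * d)^[n] (g * y * g⁻¹)) * g := by
  induction n with
  | zero =>
    show y = g⁻¹ * (g * y * g⁻¹) * g
    group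
  | succ n ih =>
    rw [Function.iterate_succ_apply', Function.iterate_succ_apply', ih]
    group

/-- the Engel map commutes with the inclusion of a subgroup -/
theorem engel_coe {X : Type*} [Group X] (L : Subgroup X) (d y : ↥L) (n : ℕ) :
    (((fun y : ↥L => y⁻¹ * d⁻¹ * y * d)^[n] y : ↥L) : X) =
      (fun y : X => y⁻¹ * (d : X)⁻¹ * y * (d : X))^[n] (y : X) := by
  induction n with
  | zero => rfl
  | succ n ih =>
    rw [Function.iterate_succ_apply', Function.iterate_succ_apply', ← ih]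
    rfl

/-- the norm of an elementwise `(p - 1)`-Engel element on an elementary abelian normal section. -/
theorem conj_norm_eq_one' {X : Type*} [Group X] {p : ℕ} [Fact p.Prime] (U V : Subgroup X)
    [hU : U.Normal] [hV : V.Normal] (hexp : ∀ y ∈ U, y ^ p ∈ V) (d : X)
    (hd : ∀ y ∈ U, (fun y : X => y⁻¹ * d⁻¹ * y * d)^[p - 1] y ∈ V) {A : Type*} [CommGroup A]
    (Λ : ↥U →* A) (hΛ : ∀ v : ↥U, (v : X) ∈ V → Λ v = 1) (k : ℕ) (hk : 1 ≤ k) (x : X)
    (hx : x ∈ U) (hmem : ∀ j : ℕ, (d ^ j)⁻¹ * x * d ^ j ∈ U) :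
    ∏ j ∈ Finset.range (p ^ k), Λ ⟨(d ^ j)⁻¹ * x * d ^ j, hmem j⟩ = 1 := by
  have hconjmem : ∀ y : ↥U, d⁻¹ * (y : X) * d ∈ U := by
    intro y
    have := hU.conj_mem y y.2 d⁻¹
    simpa using this
  let conjd : ↥U →* ↥U :=
    { toFun := fun y => ⟨d⁻¹ * (y : X) * d, hconjmem y⟩
      map_one' := by
        apply Subtype.ext
        show d⁻¹ * ((1 : ↥U) : X) * d = 1
        simp
      map_mul' := by
        intro y z
        apply Subtype.ext
        show d⁻¹ * ((y * z : ↥U) : X) * d = (d⁻¹ * (y : X) * d) * (d⁻¹ * (z : X) * d)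
        rw [Subgroup.coe_mul]
        group }
  have hconjd : ∀ y : ↥U, ((conjd y : ↥U) : X) = d⁻¹ * (y : X) * d := fun y => rfl
  have hcomap : V.subgroupOf U ≤ (V.subgroupOf U).comap conjd := by
    intro y hy
    rw [Subgroup.mem_comap, Subgroup.mem_subgroupOf, hconjd]
    have := hV.conj_mem y (Subgroup.mem_subgroupOf.mp hy) d⁻¹
    simpa using this
  let cq : (↥U ⧸ V.subgroupOf U) →* (↥U ⧸ V.subgroupOf U) :=
    QuotientGroup.map _ _ conjd hcomap
  have hcq : ∀ y : ↥U, cq (QuotientGroup.mk y) = QuotientGroup.mk (conjd y) := fun y => rfl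
  let c : ((↥U ⧸ V.subgroupOf U) →* A) →* ((↥U ⧸ V.subgroupOf U) →* A) := MonoidHom.compHom' cq
  have hc : ∀ (b' : (↥U ⧸ V.subgroupOf U) →* A) (q : ↥U ⧸ V.subgroupOf U), c b' q = b' (cq q) :=
    fun b' q => rfl
  let b : (↥U ⧸ V.subgroupOf U) →* A :=
    QuotientGroup.lift (V.subgroupOf U) Λ (fun v hv => hΛ v (Subgroup.mem_subgroupOf.mp hv))
  have hb : ∀ y : ↥U, b (QuotientGroup.mk y) = Λ y := fun y => rfl
  have hmk_one : ∀ y : ↥U, (y : X) ∈ V → (QuotientGroup.mk y : ↥U ⧸ V.subgroupOf U) = 1 := by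
    intro y hy
    exact (QuotientGroup.eq_one_iff y).mpr (Subgroup.mem_subgroupOf.mpr hy)
  have hexpB : ∀ b' : (↥U ⧸ V.subgroupOf U) →* A, b' ^ p = 1 := by
    intro b'
    refine MonoidHom.ext (fun q => ?_)
    induction q using QuotientGroup.induction_on with
    | H y =>
      rw [MonoidHom.pow_apply, ← map_pow, ← QuotientGroup.mk_pow, hmk_one, map_one,
        MonoidHom.one_apply]
      rw [Subgroup.coe_pow]
      exact hexp y y.2
  let EU : ↥U → ↥U := fun y => y⁻¹ * conjd y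
  have hδ_iter : ∀ (n : ℕ) (b' : (↥U ⧸ V.subgroupOf U) →* A) (y : ↥U),
      ((fun b' : (↥U ⧸ V.subgroupOf U) →* A => c b' * b'⁻¹)^[n] b') (QuotientGroup.mk y) =
        b' (QuotientGroup.mk (EU^[n] y)) := by
    intro n
    induction n with
    | zero => intro b' y; rfl
    | succ n ih =>
      intro b' y
      rw [Function.iterate_succ_apply, ih, Function.iterate_succ_apply', MonoidHom.mul_apply,
        MonoidHom.inv_apply, hc, hcq, mul_comm, ← map_inv, ← map_mul, ← QuotientGroup.mk_inv,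
        ← QuotientGroup.mk_mul]
  have hEU_coe : ∀ (n : ℕ) (y : ↥U),
      ((EU^[n] y : ↥U) : X) = (fun y : X => y⁻¹ * d⁻¹ * y * d)^[n] (y : X) := by
    intro n
    induction n with
    | zero => intro y; rfl
    | succ n ih =>
      intro y
      rw [Function.iterate_succ_apply', Function.iterate_succ_apply', ← ih]
      show ((EU^[n] y : ↥U) : X)⁻¹ * (d⁻¹ * ((EU^[n] y : ↥U) : X) * d) = _
      group
  have hδ : ∀ b' : (↥U ⧸ V.subgroupOf U) →* A,
      (fun b' : (↥U ⧸ V.subgroupOf U) →* A => c b' * b'⁻¹)^[p - 1] b' = 1 := by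
    intro b'
    refine MonoidHom.ext (fun q => ?_)
    induction q using QuotientGroup.induction_on with
    | H y =>
      rw [hδ_iter, hmk_one _ (by rw [hEU_coe]; exact hd y y.2), map_one, MonoidHom.one_apply]
  have hc_iter : ∀ (n : ℕ) (b' : (↥U ⧸ V.subgroupOf U) →* A) (q : ↥U ⧸ V.subgroupOf U),
      (c^[n] b') q = b' (cq^[n] q) := by
    intro n
    induction n with
    | zero => intro b' q; rfl
    | succ n ih =>
      intro b' q
      rw [Function.iterate_succ_apply, ih, hc, Function.iterate_succ_apply']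
  have hcq_iter : ∀ (n : ℕ) (y : ↥U), cq^[n] (QuotientGroup.mk y) = QuotientGroup.mk (conjd^[n] y) := by
    intro n
    induction n with
    | zero => intro y; rfl
    | succ n ih =>
      intro y
      rw [Function.iterate_succ_apply', ih, hcq, Function.iterate_succ_apply']
  have hconjd_iter : ∀ (n : ℕ) (y : ↥U), ((conjd^[n] y : ↥U) : X) = (d ^ n)⁻¹ * (y : X) * d ^ n := by
    intro n
    induction n with
    | zero => intro y; simp
    | succ n ih =>
      intro y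
      rw [Function.iterate_succ_apply', hconjd, ih, pow_succ]
      group
  have h := norm_eq_one c hexpB hδ k hk b
  have h2 := congrArg (fun f : (↥U ⧸ V.subgroupOf U) →* A => f (QuotientGroup.mk ⟨x, hx⟩)) h
  simp only [MonoidHom.finset_prod_apply, MonoidHom.one_apply] at h2
  rw [← h2]
  apply Finset.prod_congr rfl
  intro j _
  rw [hc_iter, hcq_iter, hb]
  congr 1
  apply Subtype.ext
  rw [hconjd_iter]

/-- **Core lemma, elementwise form.** Let `S ≤ M` with `S` a Sylow `p`-subgroup of `X`, `N` a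
normal `p`-subgroup, and `𝒟 ⊆ S` a set closed under fusion in `S` whose elements are
`(p - 1)`-Engel on `N`, with `N_X(⟨𝒟⟩) ≤ M`. Then `N ∩ X' ≤ M'`. -/
theorem inf_commutator_le_of_engel {X : Type*} [Group X] [Finite X] {p : ℕ} [hp : Fact p.Prime]
    (S : Sylow p X) (M : Subgroup X) (hSM : (S : Subgroup X) ≤ M)
    (N : Subgroup X) [hNn : N.Normal] (hNS : N ≤ (S : Subgroup X))
    (𝒟 : Set X) (h𝒟S : ∀ d ∈ 𝒟, d ∈ (S : Subgroup X))
    (hfus : ∀ d ∈ 𝒟, ∀ g : X, g⁻¹ * d * g ∈ (S : Subgroup X) → g⁻¹ * d * g ∈ 𝒟)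
    (hNR : Subgroup.normalizer ((Subgroup.closure 𝒟 : Subgroup X) : Set X) ≤ M)
    (hEng : ∀ d ∈ 𝒟, ∀ y ∈ N, (fun y : X => y⁻¹ * d⁻¹ * y * d)^[p - 1] y = 1) :
    N ⊓ ⁅(⊤ : Subgroup X), ⊤⁆ ≤ ⁅M, M⁆ := by
  classical
  have hpp : p.Prime := hp.out
  have hNp : IsPGroup p ↥N := S.isPGroup'.to_le hNS
  by_contra hF
  obtain ⟨U, V, hch, hUD, hVM, hUM⟩ := exists_chief N M hF
  have hexp := chief_pow_mem hch (hNp.to_le (hUD.trans inf_le_left))
  obtain ⟨hVU, hUn, hVn, hmin⟩ := hch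
  have hUN : U ≤ N := hUD.trans inf_le_left
  have hUS : U ≤ (S : Subgroup X) := hUN.trans hNS
  have hUM' : U ≤ M := hUS.trans hSM
  -- the subgroup generated by the Engel elements
  have hRS : Subgroup.closure 𝒟 ≤ (S : Subgroup X) := (Subgroup.closure_le _).mpr h𝒟S
  have hRp : IsPGroup p ↥(Subgroup.closure 𝒟) := S.isPGroup'.to_le hRS
  have hwc : ∀ g : X, rc g (Subgroup.closure 𝒟) ≤ (S : Subgroup X) →
      g ∈ Subgroup.normalizer ((Subgroup.closure 𝒟 : Subgroup X) : Set X) := by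
    intro g hg
    apply mem_normalizer_of_rc_eq
    apply rc_eq_of_le
    apply Cfsg.Agent.Lib.Helper12.WellPlaced.rc_closure_le
    rintro _ ⟨d, hd, rfl⟩
    exact Subgroup.subset_closure
      (hfus d hd g (hg (rc_mem g _ (Subgroup.subset_closure hd))))
  have hfix : ∀ g : X, (∀ r ∈ Subgroup.closure 𝒟, g⁻¹ * r * g ∈ M) → g ∈ M := by
    intro g hg
    have h1 : rc g (Subgroup.closure 𝒟) ≤ M := (rc_le_iff g _ M).mpr hg
    obtain ⟨c, hcM, hc⟩ := exists_conj_le_of_le S M hSM _ h1 (rc_isPGroup g hRp)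
    have h2 : rc (g * c⁻¹) (Subgroup.closure 𝒟) ≤ (S : Subgroup X) := by
      rw [rc_mul, rc_le_iff]
      intro b hb
      have := hc b hb
      simpa using this
    have h3 := hNR (hwc _ h2)
    have e : g = (g * c⁻¹) * c := by group
    rw [e]
    exact M.mul_mem h3 hcM
  -- the homomorphism into the abelianization of `M`, extended by `1`
  have hφ1 : ∀ (y : X) (hy : y ∈ M), (if h : y ∈ M then
      (Abelianization.of : ↥M →* Abelianization ↥M) ⟨y, h⟩ else 1) =
      (Abelianization.of : ↥M →* Abelianization ↥M) ⟨y, hy⟩ := fun y hy => dif_pos hy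
  obtain ⟨φt, hφt⟩ : ∃ φt : X → Abelianization ↥M, ∀ (y : X) (hy : y ∈ M),
      φt y = (Abelianization.of : ↥M →* Abelianization ↥M) ⟨y, hy⟩ :=
    ⟨fun y => if h : y ∈ M then (Abelianization.of : ↥M →* Abelianization ↥M) ⟨y, h⟩ else 1, hφ1⟩
  have hφt_one : φt 1 = 1 := by
    rw [hφt 1 M.one_mem]
    exact map_one _
  have hφt_mul : ∀ y z : X, y ∈ M → z ∈ M → φt (y * z) = φt y * φt z := by
    intro y z hy hz
    rw [hφt _ (M.mul_mem hy hz), hφt _ hy, hφt _ hz, ← map_mul]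
    rfl
  have hφt_conj : ∀ y m : X, y ∈ M → m ∈ M → φt (m⁻¹ * y * m) = φt y := by
    intro y m hy hm
    rw [hφt_mul _ _ (M.mul_mem (M.inv_mem hm) hy) hm, hφt_mul _ _ (M.inv_mem hm) hy, mul_comm,
      ← mul_assoc, ← hφt_mul _ _ hm (M.inv_mem hm), mul_inv_cancel, hφt_one, one_mul]
  have hφt_V : ∀ v : X, v ∈ V → φt v = 1 := by
    intro v hv
    have h1 := hVM hv
    rw [← Subgroup.map_subtype_commutator] at h1
    obtain ⟨c, hc, hcv⟩ := h1
    have hvM : v ∈ M := hcv ▸ c.2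
    rw [hφt v hvM]
    have e : (⟨v, hvM⟩ : ↥M) = c := Subtype.ext hcv.symm
    rw [e]
    have : c ∈ (Abelianization.of : ↥M →* Abelianization ↥M).ker := by
      rw [Abelianization.ker_of]
      exact hc
    exact this
  have hφt_ker : ∀ y : X, y ∈ M → φt y = 1 → y ∈ ⁅M, M⁆ := by
    intro y hy h1
    rw [hφt y hy] at h1
    have h2 : (⟨y, hy⟩ : ↥M) ∈ commutator ↥M := by
      rw [← Abelianization.ker_of]
      exact h1
    rw [← Subgroup.map_subtype_commutator]
    exact ⟨⟨y, hy⟩, h2, rfl⟩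
  have hconjU : ∀ (g y : X), y ∈ U → g⁻¹ * y * g ∈ U := by
    intro g y hy
    have := hUn.conj_mem y hy g⁻¹
    simpa using this
  have hconjV : ∀ (g y : X), y ∈ V → g⁻¹ * y * g ∈ V := by
    intro g y hy
    have := hVn.conj_mem y hy g⁻¹
    simpa using this
  have hΛ : ∀ g : X, ∃ Λ : ↥U →* Abelianization ↥M, ∀ y : ↥U, Λ y = φt (g⁻¹ * (y : X) * g) := by
    intro g
    refine ⟨{ toFun := fun y => φt (g⁻¹ * (y : X) * g), map_one' := ?_, map_mul' := ?_ },
      fun y => rfl⟩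
    · show φt (g⁻¹ * ((1 : ↥U) : X) * g) = 1
      rw [Subgroup.coe_one, mul_one, inv_mul_cancel, hφt_one]
    · intro y z
      show φt (g⁻¹ * ((y * z : ↥U) : X) * g) = φt (g⁻¹ * (y : X) * g) * φt (g⁻¹ * (z : X) * g)
      have e : g⁻¹ * ((y : X) * (z : X)) * g = (g⁻¹ * (y : X) * g) * (g⁻¹ * (z : X) * g) := by
        group
      rw [Subgroup.coe_mul, e]
      exact hφt_mul _ _ (hUM' (hconjU g y y.2)) (hUM' (hconjU g z z.2))
  -- it suffices to show that `φt` is trivial on `U`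
  apply hUM
  intro x hxU
  apply hφt_ker x (hUM' hxU)
  have hF_mk : ∀ g : X, φt ((g : X ⧸ M).out⁻¹ * x * (g : X ⧸ M).out) = φt (g⁻¹ * x * g) := by
    intro g
    obtain ⟨m, hm⟩ := QuotientGroup.mk_out_eq_mul M g
    rw [hm]
    have e : (g * (m : X))⁻¹ * x * (g * m) = (m : X)⁻¹ * (g⁻¹ * x * g) * m := by group
    rw [e]
    exact hφt_conj _ _ (hUM' (hconjU g x hxU)) m.2
  have hsmul : ∀ q : X ⧸ M, x • q = q := by
    intro q
    induction q using QuotientGroup.induction_on with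
    | H g =>
      show ((x * g : X) : X ⧸ M) = (g : X ⧸ M)
      rw [QuotientGroup.eq]
      have e : (x * g)⁻¹ * g = (g⁻¹ * x * g)⁻¹ := by group
      rw [e]
      exact M.inv_mem (hUM' (hconjU g x hxU))
  have : Fintype (X ⧸ M) := Fintype.ofFinite _
  have htr : MonoidHom.transfer (Abelianization.of : ↥M →* Abelianization ↥M) x =
      ∏ q : X ⧸ M, φt (q.out⁻¹ * x * q.out) :=
    transfer_eq_prod_of_smul_eq _ φt hφt x hsmul
  have htr1 : MonoidHom.transfer (Abelianization.of : ↥M →* Abelianization ↥M) x = 1 := by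
    have h1 := Abelianization.commutator_subset_ker
      (MonoidHom.transfer (Abelianization.of : ↥M →* Abelianization ↥M))
    have h2 : x ∈ commutator X := by
      rw [commutator_def]
      exact (hUD hxU).2
    exact h1 h2
  have hF0 : φt (((1 : X) : X ⧸ M).out⁻¹ * x * ((1 : X) : X ⧸ M).out) = φt x := by
    rw [hF_mk]
    simp
  -- the orbits of the subgroup generated by the Engel elements
  have hq₀ : ∀ r ∈ Subgroup.closure 𝒟,
      r • (((1 : X) : X ⧸ M)) = (((1 : X) : X ⧸ M)) := by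
    intro r hr
    show ((r * 1 : X) : X ⧸ M) = ((1 : X) : X ⧸ M)
    rw [QuotientGroup.eq]
    simpa using M.inv_mem (hSM (hRS hr))
  have hO_mem : ∀ ω y : X ⧸ M, y ∈ (Finset.univ.filter (fun y : X ⧸ M =>
      ∃ r ∈ Subgroup.closure 𝒟, r • ω = y)) ↔
      ∃ r ∈ Subgroup.closure 𝒟, r • ω = y := by
    intro ω y
    simp
  have hO_disj : ∀ ω ω' : X ⧸ M, ω' ∉ (Finset.univ.filter (fun y : X ⧸ M =>
      ∃ r ∈ Subgroup.closure 𝒟, r • ω = y)) →
      Disjoint (Finset.univ.filter (fun y : X ⧸ M =>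
      ∃ r ∈ Subgroup.closure 𝒟, r • ω' = y))
        (Finset.univ.filter (fun y : X ⧸ M =>
      ∃ r ∈ Subgroup.closure 𝒟, r • ω = y)) := by
    intro ω ω' h
    rw [Finset.disjoint_left]
    intro z hz1 hz2
    obtain ⟨r', hr', h1⟩ := (hO_mem _ _).mp hz1
    obtain ⟨r, hr, h2⟩ := (hO_mem _ _).mp hz2
    apply h
    rw [hO_mem]
    refine ⟨r'⁻¹ * r, Subgroup.mul_mem _ (Subgroup.inv_mem _ hr') hr, ?_⟩
    rw [mul_smul, h2, ← h1, inv_smul_smul]
  have hrest : ∏ q ∈ Finset.univ.erase (((1 : X) : X ⧸ M)),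
      φt (q.out⁻¹ * x * q.out) = 1 := by
    apply prod_eq_one_of_blocks (fun q : X ⧸ M => φt (q.out⁻¹ * x * q.out)) _ hO_disj _ _ rfl
    intro ω hω
    have hωne : ω ≠ ((1 : X) : X ⧸ M) := Finset.ne_of_mem_erase hω
    refine ⟨(hO_mem _ _).mpr ⟨1, Subgroup.one_mem _, one_smul _ _⟩, ?_, ?_⟩
    · intro y hy
      obtain ⟨r, hr, rfl⟩ := (hO_mem _ _).mp hy
      refine Finset.mem_erase.mpr ⟨?_, Finset.mem_univ _⟩
      intro h
      apply hωne
      have e : ω = r⁻¹ • (((1 : X) : X ⧸ M)) := by rw [← h, inv_smul_smul]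
      rw [e]
      exact hq₀ _ (Subgroup.inv_mem _ hr)
    · obtain ⟨g, rfl⟩ := QuotientGroup.mk_surjective ω
      have hnotfix : ¬ ∀ r ∈ Subgroup.closure 𝒟,
          r • (QuotientGroup.mk g : X ⧸ M) = QuotientGroup.mk g := by
        intro h
        apply hωne
        have hgM : g ∈ M := hfix g (fun r hr => by
          have h' : ((r * g : X) : X ⧸ M) = (g : X ⧸ M) := h r hr
          rw [QuotientGroup.eq] at h'
          have e : g⁻¹ * r * g = ((r * g)⁻¹ * g)⁻¹ := by group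
          rw [e]
          exact M.inv_mem h')
        show (g : X ⧸ M) = ((1 : X) : X ⧸ M)
        rw [QuotientGroup.eq]
        simpa using hgM
      obtain ⟨d, hd𝒟, hdfree⟩ := exists_free_of_closure 𝒟 hRp _ hnotfix
      have hdR : d ∈ Subgroup.closure 𝒟 := Subgroup.subset_closure hd𝒟
      -- the cycles of `d`
      have hmpos : ∀ y : X ⧸ M, 0 < Function.minimalPeriod (d • · : X ⧸ M → X ⧸ M) y := by
        intro y
        apply Function.IsPeriodicPt.minimalPeriod_pos (orderOf_pos d)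
        rw [MulAction.isPeriodicPt_smul_iff, pow_orderOf_eq_one, one_smul]
      have hC_mem : ∀ y z : X ⧸ M, z ∈ (Finset.range (Function.minimalPeriod
          (d • · : X ⧸ M → X ⧸ M) y)).image (fun j => d ^ j • y) ↔ ∃ n : ℤ, d ^ n • y = z := by
        intro y z
        rw [Finset.mem_image]
        constructor
        · rintro ⟨j, -, rfl⟩
          exact ⟨j, by rw [zpow_natCast]⟩
        · rintro ⟨n, rfl⟩
          have hm := hmpos y
          have h1 : 0 ≤ n % (Function.minimalPeriod (d • · : X ⧸ M → X ⧸ M) y : ℤ) :=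
            Int.emod_nonneg _ (by exact_mod_cast hm.ne')
          have h2 : n % (Function.minimalPeriod (d • · : X ⧸ M → X ⧸ M) y : ℤ) <
              (Function.minimalPeriod (d • · : X ⧸ M → X ⧸ M) y : ℤ) :=
            Int.emod_lt_of_pos _ (by exact_mod_cast hm)
          refine ⟨(n % (Function.minimalPeriod (d • · : X ⧸ M → X ⧸ M) y : ℤ)).toNat, ?_, ?_⟩
          · rw [Finset.mem_range]
            omega
          · rw [← zpow_natCast, Int.toNat_of_nonneg h1]
            exact MulAction.zpow_smul_mod_minimalPeriod d y n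
      have hC_disj : ∀ y y' : X ⧸ M, y' ∉ (Finset.range (Function.minimalPeriod
          (d • · : X ⧸ M → X ⧸ M) y)).image (fun j => d ^ j • y) →
          Disjoint ((Finset.range (Function.minimalPeriod
            (d • · : X ⧸ M → X ⧸ M) y')).image (fun j => d ^ j • y'))
            ((Finset.range (Function.minimalPeriod
              (d • · : X ⧸ M → X ⧸ M) y)).image (fun j => d ^ j • y)) := by
        intro y y' h
        rw [Finset.disjoint_left]
        intro z hz1 hz2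
        obtain ⟨a, ha⟩ := (hC_mem _ _).mp hz1
        obtain ⟨b, hb⟩ := (hC_mem _ _).mp hz2
        apply h
        rw [hC_mem]
        refine ⟨-a + b, ?_⟩
        rw [zpow_add, mul_smul, hb, ← ha, zpow_neg, inv_smul_smul]
      apply prod_eq_one_of_blocks (fun q : X ⧸ M => φt (q.out⁻¹ * x * q.out)) _ hC_disj _ _ rfl
      intro y hy
      obtain ⟨r, hr, rfl⟩ := (hO_mem _ _).mp hy
      refine ⟨(hC_mem _ _).mpr ⟨0, by simp⟩, ?_, ?_⟩
      · intro z hz
        obtain ⟨n, rfl⟩ := (hC_mem _ _).mp hz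
        rw [hO_mem]
        exact ⟨d ^ n * r, Subgroup.mul_mem _ (Subgroup.zpow_mem _ hdR n) hr, mul_smul _ _ _⟩
      · -- the product over a cycle
        have hinj : Set.InjOn (fun j : ℕ => d ^ j • (r • (QuotientGroup.mk g : X ⧸ M)))
            (Finset.range (Function.minimalPeriod (d • · : X ⧸ M → X ⧸ M)
              (r • (QuotientGroup.mk g : X ⧸ M))) : Set ℕ) := by
          intro i hi j hj hij
          have h1 := Function.iterate_injOn_Iio_minimalPeriod (f := (d • · : X ⧸ M → X ⧸ M))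
            (x := r • (QuotientGroup.mk g : X ⧸ M))
          apply h1
          · simpa using hi
          · simpa using hj
          · show (d • · : X ⧸ M → X ⧸ M)^[i] _ = (d • · : X ⧸ M → X ⧸ M)^[j] _
            rw [smul_iterate, smul_iterate]
            exact hij
        rw [Finset.prod_image hinj]
        -- the period is a positive power of `p`
        have hdS : d ∈ (S : Subgroup X) := h𝒟S d hd𝒟
        obtain ⟨e₀, he₀⟩ := S.isPGroup' ⟨d, hdS⟩
        have hdpow : d ^ p ^ e₀ = 1 := by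
          have := congrArg Subtype.val he₀
          simpa using this
        have hdvd : Function.minimalPeriod (d • · : X ⧸ M → X ⧸ M)
            (r • (QuotientGroup.mk g : X ⧸ M)) ∣ p ^ e₀ := by
          apply Function.IsPeriodicPt.minimalPeriod_dvd
          rw [MulAction.isPeriodicPt_smul_iff, hdpow, one_smul]
        obtain ⟨k, -, hk⟩ := (Nat.dvd_prime_pow hpp).mp hdvd
        have hk1 : 1 ≤ k := by
          by_contra hk0
          have hk0' : k = 0 := by omega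
          rw [hk0', pow_zero] at hk
          have := Function.minimalPeriod_eq_one_iff_isFixedPt.mp hk
          exact hdfree r hr this
        rw [hk]
        obtain ⟨Λ, hΛg⟩ := hΛ (r * g)
        have hmem : ∀ j : ℕ, (d ^ j)⁻¹ * x * d ^ j ∈ U := fun j => hconjU (d ^ j) x hxU
        have hnorm := conj_norm_eq_one' U V hexp d (by
          intro y hy
          rw [hEng d hd𝒟 y (hUN hy)]
          exact V.one_mem) Λ (by
          intro v hv
          rw [hΛg]
          exact hφt_V _ (hconjV _ _ hv)) k hk1 x hxU hmem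
        rw [← hnorm]
        apply Finset.prod_congr rfl
        intro j _
        rw [hΛg]
        have e1 : d ^ j • (r • (QuotientGroup.mk g : X ⧸ M)) =
            ((d ^ j * (r * g) : X) : X ⧸ M) := rfl
        rw [e1, hF_mk]
        congr 1
        show (d ^ j * (r * g))⁻¹ * x * (d ^ j * (r * g)) =
          (r * g)⁻¹ * ((d ^ j)⁻¹ * x * d ^ j) * (r * g)
        group
  have hprod := Finset.mul_prod_erase Finset.univ (fun q : X ⧸ M => φt (q.out⁻¹ * x * q.out))
    (Finset.mem_univ (((1 : X) : X ⧸ M)))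
  rw [hrest, mul_one, ← htr, htr1] at hprod
  rw [← hF0]
  exact hprod

/-- if all commutators `[t, g]` with `t` in the normal `p`-subgroup `N` lie in `E ≥ S'`, then
`N ∩ X' ≤ E`. -/
theorem normal_inf_commutator_le_of_comm {X : Type*} [Group X] [Finite X] {p : ℕ}
    [hp : Fact p.Prime] (S : Sylow p X) (N : Subgroup X) [hNn : N.Normal]
    (hNS : N ≤ (S : Subgroup X)) (E : Subgroup X)
    (hSE : ⁅(S : Subgroup X), (S : Subgroup X)⁆ ≤ E)
    (hcomm : ∀ t ∈ N, ∀ g : X, t⁻¹ * g⁻¹ * t * g ∈ E) :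
    N ⊓ ⁅(⊤ : Subgroup X), ⊤⁆ ≤ E := by
  intro π hπ
  obtain ⟨hπN, hπC⟩ := Subgroup.mem_inf.mp hπ
  have hπS : π ∈ (S : Subgroup X) := hNS hπN
  obtain ⟨Eb, hEb⟩ : ∃ Eb : Subgroup (Abelianization ↥(S : Subgroup X)),
      Eb = (E.subgroupOf (S : Subgroup X)).map Abelianization.of := ⟨_, rfl⟩
  obtain ⟨ϕ, hϕ⟩ : ∃ ϕ : ↥(S : Subgroup X) →* (Abelianization ↥(S : Subgroup X) ⧸ Eb),
      ϕ = (QuotientGroup.mk' Eb).comp Abelianization.of := ⟨_, rfl⟩
  have hϕE : ∀ (e : X) (he : e ∈ (S : Subgroup X)), e ∈ E → ϕ ⟨e, he⟩ = 1 := by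
    intro e he heE
    rw [hϕ]
    show (QuotientGroup.mk' Eb) (Abelianization.of ⟨e, he⟩) = 1
    rw [QuotientGroup.mk'_apply, QuotientGroup.eq_one_iff, hEb]
    exact ⟨⟨e, he⟩, Subgroup.mem_subgroupOf.mpr heE, rfl⟩
  have hϕker : ∀ (s : X) (hs : s ∈ (S : Subgroup X)), ϕ ⟨s, hs⟩ = 1 → s ∈ E := by
    intro s hs h1
    rw [hϕ] at h1
    have h2 : Abelianization.of (⟨s, hs⟩ : ↥(S : Subgroup X)) ∈ Eb := by
      have : (QuotientGroup.mk' Eb) (Abelianization.of ⟨s, hs⟩) = 1 := h1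
      rwa [QuotientGroup.mk'_apply, QuotientGroup.eq_one_iff] at this
    rw [hEb] at h2
    obtain ⟨e, he, hes⟩ := h2
    have h3 : e⁻¹ * ⟨s, hs⟩ ∈
        (Abelianization.of : ↥(S : Subgroup X) →* Abelianization ↥(S : Subgroup X)).ker := by
      rw [MonoidHom.mem_ker, map_mul, map_inv, hes, inv_mul_cancel]
    rw [Abelianization.ker_of] at h3
    have h4 : ((e⁻¹ * ⟨s, hs⟩ : ↥(S : Subgroup X)) : X) ∈
        ⁅(S : Subgroup X), (S : Subgroup X)⁆ := by
      rw [← Subgroup.map_subtype_commutator]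
      exact ⟨_, h3, rfl⟩
    have h5 := hSE h4
    have h6 : (e : X) ∈ E := Subgroup.mem_subgroupOf.mp he
    have e7 : s = (e : X) * ((e⁻¹ * ⟨s, hs⟩ : ↥(S : Subgroup X)) : X) := by
      show s = (e : X) * ((e : X)⁻¹ * s)
      group
    rw [e7]
    exact E.mul_mem h6 h5
  have key : ∀ (k : ℕ) (g₀ : X) (hk : g₀⁻¹ * π ^ k * g₀ ∈ (S : Subgroup X)),
      ϕ ⟨g₀⁻¹ * π ^ k * g₀, hk⟩ = ϕ ⟨π, hπS⟩ ^ k := by
    intro k g₀ hk
    have hπk : π ^ k ∈ N := N.pow_mem hπN k
    have h1 : (π ^ k)⁻¹ * g₀⁻¹ * π ^ k * g₀ ∈ E := hcomm _ hπk g₀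
    have hπkS : π ^ k ∈ (S : Subgroup X) := hNS hπk
    have h2 : (π ^ k)⁻¹ * g₀⁻¹ * π ^ k * g₀ ∈ (S : Subgroup X) := by
      have : (π ^ k)⁻¹ * g₀⁻¹ * π ^ k * g₀ = (π ^ k)⁻¹ * (g₀⁻¹ * π ^ k * g₀) := by group
      rw [this]
      exact Subgroup.mul_mem _ (Subgroup.inv_mem _ hπkS) hk
    have e : (⟨g₀⁻¹ * π ^ k * g₀, hk⟩ : ↥(S : Subgroup X)) =
        ⟨π, hπS⟩ ^ k * ⟨(π ^ k)⁻¹ * g₀⁻¹ * π ^ k * g₀, h2⟩ := by
      apply Subtype.ext
      show g₀⁻¹ * π ^ k * g₀ = π ^ k * ((π ^ k)⁻¹ * g₀⁻¹ * π ^ k * g₀)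
      group
    rw [e, map_mul, map_pow, hϕE _ h2 h1, mul_one]
  have h1 := transfer_eq_pow_of_map ϕ π hπS key
  have h2 : MonoidHom.transfer ϕ π = 1 := by
    have := Abelianization.commutator_subset_ker (MonoidHom.transfer ϕ)
    rw [commutator_def] at this
    exact this hπC
  rw [h2] at h1
  obtain ⟨j, hj⟩ := S.isPGroup' ⟨π, hπS⟩
  have hj' : ϕ ⟨π, hπS⟩ ^ p ^ j = 1 := by rw [← map_pow, hj, map_one]
  have hcop : Nat.Coprime (S : Subgroup X).index (p ^ j) :=
    Nat.Coprime.pow_right j ((Nat.Prime.coprime_iff_not_dvd hp.out).mpr S.not_dvd_index).symm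
  have hone : ϕ ⟨π, hπS⟩ = 1 := by
    have h3 := orderOf_dvd_of_pow_eq_one h1.symm
    have h4 := orderOf_dvd_of_pow_eq_one hj'
    have h5 := Nat.dvd_gcd h3 h4
    rw [hcop] at h5
    exact orderOf_eq_one_iff.mp (Nat.dvd_one.mp h5)
  exact hϕker π hπS hone

/-- relative form of `inf_commutator_le_of_engel`, inside a subgroup `L` of `G`. -/
theorem inf_commutator_le_of_engel_rel {G : Type*} [Group G] [Finite G] {p : ℕ}
    [hp : Fact p.Prime] (L P₁ M T : Subgroup G) (hP₁L : P₁ ≤ L) (hP₁p : IsPGroup p ↥P₁)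
    (hidx : ¬ p ∣ P₁.relIndex L) (hP₁M : P₁ ≤ M) (hTP₁ : T ≤ P₁)
    (hLT : L ≤ Subgroup.normalizer (T : Set G)) (𝒟 : Set G) (h𝒟 : ∀ d ∈ 𝒟, d ∈ P₁)
    (hfus : ∀ d ∈ 𝒟, ∀ g ∈ L, g⁻¹ * d * g ∈ P₁ → g⁻¹ * d * g ∈ 𝒟)
    (hNR : Subgroup.normalizer ((Subgroup.closure 𝒟 : Subgroup G) : Set G) ⊓ L ≤ M)
    (hEng : ∀ d ∈ 𝒟, ∀ y ∈ T, (fun y : G => y⁻¹ * d⁻¹ * y * d)^[p - 1] y = 1) :
    T ⊓ ⁅L, L⁆ ≤ ⁅M, M⁆ := by
  have hP₁' : IsPGroup p ↥(P₁.subgroupOf L) := hP₁p.comap_subtype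
  have hidx' : ¬ p ∣ (P₁.subgroupOf L).index := hidx
  haveI hNn : (T.subgroupOf L).Normal := Subgroup.normal_subgroupOf_of_le_normalizer hLT
  have hScoe : ((hP₁'.toSylow hidx' : Sylow p ↥L) : Subgroup ↥L) = P₁.subgroupOf L :=
    IsPGroup.toSylow_coe _ _
  have hcl : (Subgroup.closure {d : ↥L | (d : G) ∈ 𝒟}).map L.subtype = Subgroup.closure 𝒟 := by
    rw [MonoidHom.map_closure]
    congr 1
    ext x
    constructor
    · rintro ⟨d, hd, rfl⟩
      exact hd
    · intro hx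
      exact ⟨⟨x, hP₁L (h𝒟 x hx)⟩, hx, rfl⟩
  have key := inf_commutator_le_of_engel (hP₁'.toSylow hidx') (M.subgroupOf L)
    (by
      rw [hScoe]
      intro x hx
      exact Subgroup.mem_subgroupOf.mpr (hP₁M (Subgroup.mem_subgroupOf.mp hx)))
    (T.subgroupOf L)
    (by
      rw [hScoe]
      intro x hx
      exact Subgroup.mem_subgroupOf.mpr (hTP₁ (Subgroup.mem_subgroupOf.mp hx)))
    {d : ↥L | (d : G) ∈ 𝒟}
    (by
      intro d hd
      rw [hScoe]
      exact Subgroup.mem_subgroupOf.mpr (h𝒟 _ hd))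
    (by
      intro d hd g hg
      rw [hScoe, Subgroup.mem_subgroupOf] at hg
      exact hfus _ hd _ g.2 hg)
    (by
      intro g hg
      rw [Subgroup.mem_subgroupOf]
      apply hNR
      refine Subgroup.mem_inf.mpr ⟨?_, g.2⟩
      have h1 := Subgroup.le_normalizer_map L.subtype
        (H := Subgroup.closure {d : ↥L | (d : G) ∈ 𝒟})
      rw [hcl] at h1
      exact h1 ⟨g, hg, rfl⟩)
    (by
      intro d hd y hy
      apply Subtype.ext
      rw [engel_coe]
      exact hEng _ hd _ (Subgroup.mem_subgroupOf.mp hy))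
  intro x hx
  obtain ⟨hxT, hxC⟩ := Subgroup.mem_inf.mp hx
  rw [← Subgroup.map_subtype_commutator] at hxC
  obtain ⟨w, hw, hwx⟩ := hxC
  have hwx' : (w : G) = x := hwx
  have hwN : w ∈ T.subgroupOf L := by
    rw [Subgroup.mem_subgroupOf, hwx']
    exact hxT
  have h1 := key (Subgroup.mem_inf.mpr ⟨hwN, hw⟩)
  have h2 : (⁅M.subgroupOf L, M.subgroupOf L⁆).map L.subtype ≤ ⁅M, M⁆ := by
    rw [Subgroup.map_commutator, Subgroup.subgroupOf_map_subtype]
    exact Subgroup.commutator_mono inf_le_left inf_le_left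
  rw [← hwx']
  exact h2 ⟨w, h1, rfl⟩

/-- relative form of `normal_inf_commutator_le_of_comm`, inside a subgroup `M` of `G`. -/
theorem inf_commutator_le_of_comm_rel {G : Type*} [Group G] [Finite G] {p : ℕ}
    [hp : Fact p.Prime] (M P₁ T K : Subgroup G) (hP₁M : P₁ ≤ M) (hP₁p : IsPGroup p ↥P₁)
    (hidx : ¬ p ∣ P₁.relIndex M) (hTP₁ : T ≤ P₁) (hMT : M ≤ Subgroup.normalizer (T : Set G))
    (hK : ⁅P₁, P₁⁆ ≤ K) (hcomm : ∀ t ∈ T, ∀ m ∈ M, t⁻¹ * m⁻¹ * t * m ∈ K) :
    T ⊓ ⁅M, M⁆ ≤ K := by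
  have hP₁' : IsPGroup p ↥(P₁.subgroupOf M) := hP₁p.comap_subtype
  have hidx' : ¬ p ∣ (P₁.subgroupOf M).index := hidx
  haveI hNn : (T.subgroupOf M).Normal := Subgroup.normal_subgroupOf_of_le_normalizer hMT
  have hScoe : ((hP₁'.toSylow hidx' : Sylow p ↥M) : Subgroup ↥M) = P₁.subgroupOf M :=
    IsPGroup.toSylow_coe _ _
  have key := normal_inf_commutator_le_of_comm (hP₁'.toSylow hidx') (T.subgroupOf M)
    (by
      rw [hScoe]
      intro x hx
      exact Subgroup.mem_subgroupOf.mpr (hTP₁ (Subgroup.mem_subgroupOf.mp hx)))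
    (K.subgroupOf M)
    (by
      rw [hScoe, Subgroup.commutator_le]
      intro a ha b hb
      rw [Subgroup.mem_subgroupOf]
      apply hK
      have : ((⁅a, b⁆ : ↥M) : G) = ⁅(a : G), (b : G)⁆ := by simp [commutatorElement_def]
      rw [this]
      exact Subgroup.commutator_mem_commutator (Subgroup.mem_subgroupOf.mp ha)
        (Subgroup.mem_subgroupOf.mp hb))
    (by
      intro t ht g
      rw [Subgroup.mem_subgroupOf]
      exact hcomm _ (Subgroup.mem_subgroupOf.mp ht) _ g.2)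
  intro x hx
  obtain ⟨hxT, hxC⟩ := Subgroup.mem_inf.mp hx
  rw [← Subgroup.map_subtype_commutator] at hxC
  obtain ⟨w, hw, hwx⟩ := hxC
  have hwx' : (w : G) = x := hwx
  have hwN : w ∈ T.subgroupOf M := by
    rw [Subgroup.mem_subgroupOf, hwx']
    exact hxT
  have h1 := key (Subgroup.mem_inf.mpr ⟨hwN, hw⟩)
  rw [← hwx']
  exact Subgroup.mem_subgroupOf.mp h1

end Cfsg.Agent.Lib.Helper12.EngelFocal
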