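import Mathlib
import Cfsg.Prelude.Def_ConjugacyFunctors
import Cfsg.Prelude.Def_LocalEven
import Cfsg.Agent.Lib.Helper9.Cores
import Cfsg.Agent.Lib.Helper12.SylowBasic
import Cfsg.Agent.Lib.Helper12.KInf
import Cfsg.Agent.Lib.Helper12.KInfCubic
import Cfsg.Agent.Lib.Helper12.Critical
import Cfsg.Agent.Lib.Helper12.QuarticFilt
import Cfsg.Agent.Lib.Helper12.QStab
import Cfsg.Agent.Lib.Helper12.KInfStable
import Cfsg.Agent.Lib.Helper12.ChiefFilt
import Cfsg.Agent.Lib.Helper12.SmallExp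

set_option autoImplicit false

/-! K-infinity when only the quotients `G / N` (`N` normal in `G`) are `p`-stable in the
normalizer form: if `C_G(O_p(G)) ≤ O_p(G)`, both K-infinity subgroups of a Sylow `p`-subgroup
are normal in `G` (`kinf_normal_of_qstable`).  Compared with `KInfStable`, the only sections
`X / R` that are used have `R` normal in `G`; the missing section is replaced by a Clifford
argument on a chief factor of `G`. -/

namespace Cfsg.Agent.Lib.Helper12.KInfQuot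

open Cfsg Cfsg.Agent.Lib.Helper12.KInf Cfsg.Agent.Lib.Helper12.KInfCubic
  Cfsg.Agent.Lib.Helper12.Critical Cfsg.Agent.Lib.Helper12.QuarticFilt
  Cfsg.Agent.Lib.Helper12.SylowBasic Cfsg.Agent.Lib.Helper12.QStab
  Cfsg.Agent.Lib.Helper12.KInfStable Cfsg.Agent.Lib.Helper12.ChiefFilt
open scoped commutatorElement

universe u

/-- `QStab` for the sections `X / R` with `R` normal in the whole group. -/
def QStabN (p : ℕ) (G : Type*) [Group G] : Prop :=
  ∀ K X R : Subgroup G, R.Normal → R ≤ X → X ≤ K →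
    K ≤ Subgroup.normalizer (X : Set G) → (∀ x ∈ X, ∃ k : ℕ, x ^ p ^ k ∈ R) →
    ∀ g ∈ K, ⁅⁅X, Subgroup.zpowers g⁆, Subgroup.zpowers g⁆ ≤ R →
    ∃ D : Subgroup G, D ≤ K ∧ K ≤ Subgroup.normalizer (D : Set G) ∧ g ∈ D ∧
      ∀ d ∈ D, ∃ k : ℕ, ∀ x ∈ X, ⁅x, d ^ p ^ k⁆ ∈ R

/-- The normalizer form of `p`-stability of all quotients gives `QStabN`. -/
theorem qstabN_of_quotients {p : ℕ} [Fact p.Prime] {G : Type u} [Group G] [Finite G]
    (hst : ∀ (N : Subgroup G) [N.Normal], Cfsg.IsNormalizerPStable p (G ⧸ N)) : QStabN p G := by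
  intro K X R hRn hRX hXK hKX hpow g hg hquad
  haveI := hRn
  obtain ⟨π, hπ⟩ : ∃ π : G →* G ⧸ R, π = QuotientGroup.mk' R := ⟨_, rfl⟩
  have hπ1 : ∀ x : G, π x = 1 ↔ x ∈ R := by
    intro x
    rw [hπ, QuotientGroup.mk'_apply, QuotientGroup.eq_one_iff]
  obtain ⟨P, hP⟩ : ∃ P : Subgroup (G ⧸ R), P = X.map π := ⟨_, rfl⟩
  have hPp : IsPGroup p ↥P := by
    rintro ⟨y, hy⟩
    rw [hP] at hy
    obtain ⟨x₀, hx₀, rfl⟩ := hy
    obtain ⟨k, hk⟩ := hpow x₀ hx₀
    refine ⟨k, Subtype.ext ?_⟩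
    show (π x₀) ^ p ^ k = 1
    rw [← map_pow, hπ1]
    exact hk
  have hKP : K.map π ≤ Subgroup.normalizer (P : Set (G ⧸ R)) := by
    apply le_normalizer_of_conj_mem
    rintro _ ⟨k, hk, rfl⟩ _ hd
    rw [hP] at hd ⊢
    obtain ⟨x₀, hx₀, rfl⟩ := hd
    exact ⟨k * x₀ * k⁻¹, conj_mem_of_le_normalizer hKX hk hx₀, by simp⟩
  have hmemN : ∀ x : ↥K, (π.comp K.subtype) x ∈ Subgroup.normalizer (P : Set (G ⧸ R)) :=
    fun x => hKP ⟨x, x.2, rfl⟩
  have hq : ⁅⁅P, Subgroup.zpowers (π g)⁆, Subgroup.zpowers (π g)⁆ = ⊥ := by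
    rw [hP, ← MonoidHom.map_zpowers, ← Subgroup.map_commutator, ← Subgroup.map_commutator,
      eq_bot_iff, Subgroup.map_le_iff_le_comap]
    intro y hy
    rw [Subgroup.mem_comap, Subgroup.mem_bot, hπ1]
    exact hquad hy
  have h1 := hst R P hPp (π g) (hmemN ⟨g, hg⟩) hq
  obtain ⟨ψ, hψ⟩ : ∃ ψ : ↥K →* ↥(Subgroup.normalizer (P : Set (G ⧸ R))) ⧸
      (Subgroup.centralizer (P : Set (G ⧸ R))).subgroupOf
        (Subgroup.normalizer (P : Set (G ⧸ R))),
      ∀ x : ↥K, ψ x = QuotientGroup.mk (⟨(π.comp K.subtype) x, hmemN x⟩ :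
        ↥(Subgroup.normalizer (P : Set (G ⧸ R)))) :=
    ⟨(QuotientGroup.mk' _).comp ((π.comp K.subtype).codRestrict _ hmemN), fun _ => rfl⟩
  have hOp := Cfsg.Agent.Lib.Helper9.pCore_isPGroup p
    (↥(Subgroup.normalizer (P : Set (G ⧸ R))) ⧸
      (Subgroup.centralizer (P : Set (G ⧸ R))).subgroupOf
        (Subgroup.normalizer (P : Set (G ⧸ R))))
  haveI hOn := Cfsg.Agent.Lib.Helper12.SylowBasic.pCore_normal'
    (G := (↥(Subgroup.normalizer (P : Set (G ⧸ R))) ⧸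
      (Subgroup.centralizer (P : Set (G ⧸ R))).subgroupOf
        (Subgroup.normalizer (P : Set (G ⧸ R))))) p
  refine ⟨((pCore p _).comap ψ).map K.subtype, Subgroup.map_subtype_le _, ?_, ?_, ?_⟩
  · apply le_normalizer_of_conj_mem
    rintro k hk _ ⟨d₀, hd₀, rfl⟩
    refine ⟨⟨k, hk⟩ * d₀ * ⟨k, hk⟩⁻¹, ?_, rfl⟩
    show ψ (⟨k, hk⟩ * d₀ * ⟨k, hk⟩⁻¹) ∈ pCore p _
    rw [map_mul, map_mul, map_inv]
    exact hOn.conj_mem _ hd₀ _
  · refine ⟨⟨g, hg⟩, ?_, rfl⟩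
    show ψ ⟨g, hg⟩ ∈ pCore p _
    rw [hψ]
    exact h1
  · rintro _ ⟨d₀, hd₀, rfl⟩
    have hd₀' : ψ d₀ ∈ pCore p _ := hd₀
    obtain ⟨k, hk⟩ := hOp ⟨ψ d₀, hd₀'⟩
    have hk' : (ψ d₀) ^ p ^ k = 1 := congrArg Subtype.val hk
    rw [← map_pow, hψ, QuotientGroup.eq_one_iff, Subgroup.mem_subgroupOf] at hk'
    have hk2 : π ((d₀ : G) ^ p ^ k) ∈ Subgroup.centralizer (P : Set (G ⧸ R)) := hk'
    refine ⟨k, fun x hx => ?_⟩
    have hxP : π x ∈ P := by
      rw [hP]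
      exact ⟨x, hx, rfl⟩
    have h3 := (Subgroup.mem_centralizer_iff.mp hk2) _ hxP
    have h4 : π ⁅x, (d₀ : G) ^ p ^ k⁆ = 1 := by
      rw [map_commutatorElement, commutatorElement_eq_one_iff_mul_comm]
      exact h3
    exact (hπ1 _).mp h4

/-! ### Clifford's theorem on a chief factor -/

theorem dinv_sup {L : Type*} [Group L] {D X X' : Subgroup L} (h : DInv D X) (h' : DInv D X') :
    DInv D (X ⊔ X') := by
  intro d hd x hx
  have h1 : (X ⊔ X').map (MulAut.conj d).toMonoidHom ≤ X ⊔ X' := by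
    rw [Subgroup.map_sup]
    apply sup_le_sup
    · rintro _ ⟨a, ha, rfl⟩
      exact h d hd a ha
    · rintro _ ⟨a, ha, rfl⟩
      exact h' d hd a ha
  exact h1 ⟨x, hx, rfl⟩

theorem mem_sup_between {G : Type*} [Group G] {U V X Z : Subgroup G} (hab : ⁅U, U⁆ ≤ V)
    (hVZ : V ≤ Z) (hXU : X ≤ U) (hZU : Z ≤ U) {x : G} (hx : x ∈ X ⊔ Z) :
    ∃ a ∈ X, ∃ b ∈ Z, x = a * b := by
  haveI hZn : (Z.subgroupOf U).Normal := by
    refine ⟨fun z hz u => ?_⟩
    rw [Subgroup.mem_subgroupOf] at hz ⊢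
    have e : ((u * z * u⁻¹ : ↥U) : G) = ⁅(u : G), (z : G)⁆ * (z : G) := by
      simp only [commutatorElement_def, Subgroup.coe_mul, Subgroup.coe_inv]; group
    rw [e]
    exact Z.mul_mem (hVZ (hab (Subgroup.commutator_mem_commutator u.2 z.2))) hz
  have hxU : x ∈ U := (sup_le hXU hZU) hx
  have h1 : (⟨x, hxU⟩ : ↥U) ∈ (X ⊔ Z).subgroupOf U := Subgroup.mem_subgroupOf.mpr hx
  rw [Subgroup.subgroupOf_sup hXU hZU] at h1
  obtain ⟨a, ha, b, hb, hab'⟩ := Subgroup.mem_sup_of_normal_right.mp h1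
  exact ⟨a, Subgroup.mem_subgroupOf.mp ha, b, Subgroup.mem_subgroupOf.mp hb,
    (congrArg Subtype.val hab').symm⟩

/-- Clifford: in a chief factor `U / V` of `G`, every subgroup between `V` and `U` invariant
under a normal subgroup `Y` of `G` has a `Y`-invariant complement. -/
theorem clifford_compl {G : Type*} [Group G] [Finite G] {U V : Subgroup G}
    (hUV : IsChiefFactor U V) (hab : ⁅U, U⁆ ≤ V) (Y : Subgroup G) [hY : Y.Normal]
    (S : Subgroup G) (hVS : V ≤ S) (hSU : S ≤ U) (hSY : DInv Y S) :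
    ∃ S' : Subgroup G, V ≤ S' ∧ S' ≤ U ∧ DInv Y S' ∧ S ⊓ S' = V ∧ S ⊔ S' = U := by
  obtain ⟨hVU, hUn, hVn, hmin⟩ := hUV
  haveI := hUn
  haveI := hVn
  haveI : Nonempty {S' : Subgroup G // V ≤ S' ∧ S' ≤ U ∧ DInv Y S' ∧ S ⊓ S' = V} :=
    ⟨⟨V, le_rfl, hVU.le, dinv_of_normal Y V, inf_eq_right.mpr hVS⟩⟩
  obtain ⟨⟨S', hVS', hS'U, hS'Y, hSS'⟩, hmax⟩ := Finite.exists_max
    (fun S' : {S' : Subgroup G // V ≤ S' ∧ S' ≤ U ∧ DInv Y S' ∧ S ⊓ S' = V} => Nat.card ↥S'.1)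
  refine ⟨S', hVS', hS'U, hS'Y, hSS', ?_⟩
  by_contra hne
  have hle : S ⊔ S' ≤ U := sup_le hSU hS'U
  have hS₂Y : DInv Y (S ⊔ S') := dinv_sup hSY hS'Y
  -- a `Y`-irreducible subgroup
  haveI : Nonempty {I : Subgroup G // V < I ∧ I ≤ U ∧ DInv Y I} :=
    ⟨⟨U, hVU, le_rfl, dinv_of_normal Y U⟩⟩
  obtain ⟨⟨I₀, hVI₀, hI₀U, hI₀Y⟩, hImin⟩ := Finite.exists_min
    (fun I : {I : Subgroup G // V < I ∧ I ≤ U ∧ DInv Y I} => Nat.card ↥I.1)
  have hI₀irr : ∀ J : Subgroup G, V ≤ J → J ≤ I₀ → DInv Y J → J = V ∨ J = I₀ := by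
    intro J hVJ hJI hJY
    by_cases h : J = V
    · exact Or.inl h
    · right
      have h1 := hImin ⟨J, lt_of_le_of_ne hVJ (Ne.symm h), hJI.trans hI₀U, hJY⟩
      exact Subgroup.eq_of_le_of_card_ge hJI h1
  -- some conjugate of `I₀` is not inside `S ⊔ S'`
  obtain ⟨g, i₀, hi₀, hgi₀⟩ : ∃ g : G, ∃ i₀ ∈ I₀, g * i₀ * g⁻¹ ∉ S ⊔ S' := by
    by_contra hcon
    push Not at hcon
    have h1 : I₀ ≤ (S ⊔ S').normalCore := fun i hi b => hcon b i hi
    have h2 : V ≤ (S ⊔ S').normalCore :=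
      Subgroup.normal_le_normalCore.mpr (hVS.trans le_sup_left)
    have h3 : (S ⊔ S').normalCore ≤ U := (Subgroup.normalCore_le _).trans hle
    rcases hmin _ inferInstance h2 h3 with h4 | h4
    · exact hVI₀.not_ge (h4 ▸ h1)
    · exact hne (le_antisymm hle (h4 ▸ Subgroup.normalCore_le _))
  -- the conjugate `I = g I₀ g⁻¹`
  obtain ⟨I, hI⟩ : ∃ I : Subgroup G, ∀ x, x ∈ I ↔ g⁻¹ * x * g ∈ I₀ :=
    ⟨I₀.comap (MulAut.conj g⁻¹).toMonoidHom, fun x => by
      rw [Subgroup.mem_comap]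
      show g⁻¹ * x * g⁻¹⁻¹ ∈ I₀ ↔ _
      rw [inv_inv]⟩
  have hVI : V ≤ I := fun v hv => (hI v).mpr (hVI₀.le (by
    have h1 := hVn.conj_mem v hv g⁻¹
    rwa [inv_inv] at h1))
  have hIU : I ≤ U := by
    intro x hx
    have h1 := hUn.conj_mem _ (hI₀U ((hI x).mp hx)) g
    have e : g * (g⁻¹ * x * g) * g⁻¹ = x := by group
    rwa [e] at h1
  have hIY : DInv Y I := by
    intro y hy x hx
    rw [hI] at hx ⊢
    have h1 := hI₀Y (g⁻¹ * y * g) (by
      have h2 := hY.conj_mem y hy g⁻¹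
      rwa [inv_inv] at h2) _ hx
    have e : g⁻¹ * (y * x * y⁻¹) * g = g⁻¹ * y * g * (g⁻¹ * x * g) * (g⁻¹ * y * g)⁻¹ := by group
    rw [e]
    exact h1
  -- `I ⊓ (S ⊔ S') = V`
  have hIS₂ : ∀ x ∈ I, x ∈ S ⊔ S' → x ∈ V := by
    obtain ⟨J, hJ⟩ : ∃ J : Subgroup G, ∀ i, i ∈ J ↔ i ∈ I₀ ∧ g * i * g⁻¹ ∈ S ⊔ S' :=
      ⟨I₀ ⊓ (S ⊔ S').comap (MulAut.conj g).toMonoidHom, fun i => by
        rw [Subgroup.mem_inf, Subgroup.mem_comap]
        rfl⟩
    have hVJ : V ≤ J := fun v hv =>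
      (hJ v).mpr ⟨hVI₀.le hv, (hVS.trans le_sup_left) (hVn.conj_mem v hv g)⟩
    have hJI : J ≤ I₀ := fun i hi => ((hJ i).mp hi).1
    have hJY : DInv Y J := by
      intro y hy i hi
      rw [hJ] at hi ⊢
      refine ⟨hI₀Y y hy i hi.1, ?_⟩
      have h1 := hS₂Y (g * y * g⁻¹) (hY.conj_mem y hy g) _ hi.2
      have e : g * (y * i * y⁻¹) * g⁻¹ = g * y * g⁻¹ * (g * i * g⁻¹) * (g * y * g⁻¹)⁻¹ := by
        group
      rw [e]
      exact h1
    rcases hI₀irr J hVJ hJI hJY with h1 | h1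
    · intro x hx hx2
      have h2 : g⁻¹ * x * g ∈ J := (hJ _).mpr ⟨(hI x).mp hx, by
        have e : g * (g⁻¹ * x * g) * g⁻¹ = x := by group
        rw [e]
        exact hx2⟩
      rw [h1] at h2
      have h3 := hVn.conj_mem _ h2 g
      have e : g * (g⁻¹ * x * g) * g⁻¹ = x := by group
      rwa [e] at h3
    · exfalso
      have h2 : i₀ ∈ J := h1 ▸ hi₀
      exact hgi₀ ((hJ i₀).mp h2).2
  have hx₀I : g * i₀ * g⁻¹ ∈ I := by
    rw [hI]
    have e : g⁻¹ * (g * i₀ * g⁻¹) * g = i₀ := by group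
    rw [e]
    exact hi₀
  -- enlarge `S'`
  have hS'' : S ⊓ (S' ⊔ I) = V := by
    apply le_antisymm
    · rintro x ⟨hxS, hx2⟩
      obtain ⟨a, ha, b, hb, rfl⟩ := mem_sup_between hab hVI hS'U hIU hx2
      have hbS₂ : b ∈ S ⊔ S' := by
        have e : b = a⁻¹ * (a * b) := by group
        rw [e]
        exact Subgroup.mul_mem _ (Subgroup.mem_sup_right (S'.inv_mem ha))
          (Subgroup.mem_sup_left hxS)
      have hbV : b ∈ V := hIS₂ b hb hbS₂
      have habS' : a * b ∈ S' := S'.mul_mem ha (hVS' hbV)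
      have h5 : a * b ∈ S ⊓ S' := ⟨hxS, habS'⟩
      rw [hSS'] at h5
      exact h5
    · exact le_inf hVS (hVS'.trans le_sup_left)
  have h6 := hmax ⟨S' ⊔ I, hVS'.trans le_sup_left, sup_le hS'U hIU, dinv_sup hS'Y hIY, hS''⟩
  have h7 : S' = S' ⊔ I := Subgroup.eq_of_le_of_card_ge le_sup_left h6
  apply hgi₀
  apply Subgroup.mem_sup_right
  rw [h7]
  exact Subgroup.mem_sup_right hx₀I

/-- Fixed points and commutators of a subnormal subgroup on a chief factor meet trivially. -/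
theorem clifford_fix {G : Type*} [Group G] [Finite G] {U V : Subgroup G}
    (hUV : IsChiefFactor U V) (hab : ⁅U, U⁆ ≤ V) (Y Y₁ : Subgroup G) [hY : Y.Normal]
    (hY₁Y : Y₁ ≤ Y) (hn : DInv Y Y₁) (x : G) (hxD : x ∈ ⁅U, Y₁⁆ ⊔ V)
    (hxc : ∀ z ∈ Y₁, ⁅x, z⁆ ∈ V) : x ∈ V := by
  have hVU := hUV.1
  have hUn := hUV.2.1
  have hVn := hUV.2.2.1
  haveI := hUn
  haveI := hVn
  obtain ⟨F, hF⟩ := exists_commSub U (fun _ : Unit => Y₁) (fun _ => V)
    (fun _ t _ r hr => hVn.conj_mem r hr t)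
  have hVF : V ≤ F := by
    intro v hv
    refine (hF v).mpr ⟨hVU.le hv, fun _ a _ => ?_⟩
    have e : ⁅a, v⁆ = (a * v * a⁻¹) * v⁻¹ := by simp only [commutatorElement_def]
    rw [e]
    exact V.mul_mem (hVn.conj_mem v hv a) (V.inv_mem hv)
  have hFU : F ≤ U := fun t ht => ((hF t).mp ht).1
  have hFY : DInv Y F := by
    intro y hy t ht
    obtain ⟨h1, h2⟩ := (hF t).mp ht
    refine (hF _).mpr ⟨hUn.conj_mem t h1 y, fun _ a ha => ?_⟩
    have e : ⁅a, y * t * y⁻¹⁆ = y * ⁅y⁻¹ * a * y⁻¹⁻¹, t⁆ * y⁻¹ := by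
      simp only [commutatorElement_def]; group
    rw [e]
    exact hVn.conj_mem _ (h2 () _ (hn y⁻¹ (Y.inv_mem hy) a ha)) y
  obtain ⟨F', hVF', hF'U, hF'Y, hFF', hsup⟩ := clifford_compl hUV hab Y F hVF hFU hFY
  have hcomm : ⁅U, Y₁⁆ ≤ F' := by
    rw [Subgroup.commutator_le]
    intro u hu z hz
    have hu' : u ∈ F ⊔ F' := hsup ▸ hu
    obtain ⟨f, hf, f', hf', rfl⟩ := mem_sup_between hab hVF' hFU hF'U hu'
    have e : ⁅f * f', z⁆ = ⁅f, ⁅f', z⁆⁆ * ⁅f', z⁆ * ⁅f, z⁆ := by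
      simp only [commutatorElement_def]; group
    rw [e]
    have h1 : ⁅f', z⁆ ∈ F' := by
      have e1 : ⁅f', z⁆ = f' * (z * f'⁻¹ * z⁻¹) := by
        simp only [commutatorElement_def]; group
      rw [e1]
      exact F'.mul_mem hf' (hF'Y z (hY₁Y hz) _ (F'.inv_mem hf'))
    have h2 : ⁅f, ⁅f', z⁆⁆ ∈ F' :=
      hVF' (hab (Subgroup.commutator_mem_commutator (hFU hf) (hF'U h1)))
    have h3 : ⁅f, z⁆ ∈ F' := by
      have h4 := ((hF f).mp hf).2 () z hz
      rw [← commutatorElement_inv]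
      exact F'.inv_mem (hVF' h4)
    exact F'.mul_mem (F'.mul_mem h2 h1) h3
  have hxF' : x ∈ F' := (sup_le hcomm hVF') hxD
  have hxF : x ∈ F := by
    refine (hF x).mpr ⟨hF'U hxF', fun _ a ha => ?_⟩
    rw [← commutatorElement_inv]
    exact V.inv_mem (hxc a ha)
  have h5 : x ∈ F ⊓ F' := ⟨hxF, hxF'⟩
  rw [hFF'] at h5
  exact h5

/-! ### coprime action lemmas -/

theorem cent_of_pow_coprime {G : Type*} [Group G] (X R : Subgroup G) [hR : R.Normal] (y : G)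
    (n : ℕ) (hn : n.Coprime (orderOf y)) (h : ∀ x ∈ X, ⁅x, y ^ n⁆ ∈ R) :
    ∀ x ∈ X, ⁅x, y⁆ ∈ R := by
  obtain ⟨F, hF⟩ := exists_commSub (⊤ : Subgroup G) (fun _ : Unit => X) (fun _ => R)
    (fun _ t _ r hr => hR.conj_mem r hr t)
  have h1 : y ^ n ∈ F := (hF _).mpr ⟨Subgroup.mem_top _, fun _ a ha => h a ha⟩
  obtain ⟨m, hm⟩ := exists_pow_eq_self_of_coprime hn
  have h2 : y ∈ F := by
    rw [← hm]
    exact F.pow_mem h1 m
  intro x hx
  exact ((hF y).mp h2).2 () x hx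

theorem coprime_central_of_quad {p : ℕ} [Fact p.Prime] {G : Type*} [Group G] [Finite G]
    (U V : Subgroup G) [hU : U.Normal] [hV : V.Normal] (hUp : IsPGroup p ↥U) (y : G)
    (hy : (orderOf y).Coprime p) (h2 : ∀ x ∈ U, ⁅⁅x, y⁆, y⁆ ∈ V) : ∀ x ∈ U, ⁅x, y⁆ ∈ V := by
  intro x hx
  obtain ⟨π, hπ⟩ : ∃ π : G →* G ⧸ V, π = QuotientGroup.mk' V := ⟨_, rfl⟩
  have hπ1 : ∀ x : G, π x = 1 ↔ x ∈ V := by
    intro x
    rw [hπ, QuotientGroup.mk'_apply, QuotientGroup.eq_one_iff]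
  have hyxU : ⁅y, x⁆ ∈ U := by
    have e : ⁅y, x⁆ = (y * x * y⁻¹) * x⁻¹ := by simp only [commutatorElement_def]
    rw [e]
    exact U.mul_mem (hU.conj_mem x hx y) (U.inv_mem hx)
  have hcomm : Commute ⁅π y, π x⁆ (π y) := by
    have h3 := (hπ1 _).mpr (h2 x hx)
    rw [map_commutatorElement, map_commutatorElement,
      commutatorElement_eq_one_iff_mul_comm] at h3
    have h4 : Commute ⁅π x, π y⁆ (π y) := h3
    rw [← commutatorElement_inv]
    exact h4.inv_left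
  have h5 := Cfsg.Agent.Lib.Helper12.SmallExp.comm_pow_left (π y) (π x) hcomm (orderOf y)
  rw [← map_pow, pow_orderOf_eq_one, map_one] at h5
  have h6 : ⁅(1 : G ⧸ V), π x⁆ = 1 := by simp
  rw [h6] at h5
  obtain ⟨j, hj⟩ := hUp ⟨⁅y, x⁆, hyxU⟩
  have hj' : ⁅y, x⁆ ^ p ^ j = 1 := congrArg Subtype.val hj
  have h7 : ⁅π y, π x⁆ ^ p ^ j = 1 := by
    rw [← map_commutatorElement, ← map_pow, hj', map_one]
  have h8 : orderOf ⁅π y, π x⁆ ∣ orderOf y := orderOf_dvd_of_pow_eq_one h5.symm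
  have h9 : orderOf ⁅π y, π x⁆ ∣ p ^ j := orderOf_dvd_of_pow_eq_one h7
  have h10 : orderOf ⁅π y, π x⁆ = 1 :=
    Nat.eq_one_of_dvd_coprimes (Nat.Coprime.pow_right j hy) h8 h9
  rw [orderOf_eq_one_iff, ← map_commutatorElement, hπ1] at h10
  rw [← commutatorElement_inv]
  exact V.inv_mem h10

theorem cent_of_chain {p : ℕ} [Fact p.Prime] {G : Type*} [Group G] [Finite G]
    (N : ℕ → Subgroup G) (hNn : ∀ m, (N m).Normal) (hNp : ∀ m, IsPGroup p ↥(N m))
    (hc : ∃ c, N c = ⊥) (y : G) (hy : (orderOf y).Coprime p)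
    (h : ∀ m, ∀ x ∈ N m, ⁅x, y⁆ ∈ N (m + 1)) : ∀ x ∈ N 0, ⁅x, y⁆ = 1 := by
  obtain ⟨c, hc⟩ := hc
  have key : ∀ k m, m + k = c → ∀ x ∈ N m, ⁅x, y⁆ = 1 := by
    intro k
    induction k with
    | zero =>
      intro m hm x hx
      rw [Nat.add_zero] at hm
      rw [hm, hc, Subgroup.mem_bot] at hx
      rw [hx]
      simp
    | succ k ih =>
      intro m hm x hx
      have h1 := ih (m + 1) (by omega)
      haveI := hNn m
      have h2 := coprime_central_of_quad (N m) ⊥ (hNp m) y hy (fun x' hx' => by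
        rw [Subgroup.mem_bot]
        exact h1 _ (h m x' hx'))
      exact Subgroup.mem_bot.mp (h2 x hx)
  by_cases hc0 : ∃ k, 0 + k = c
  · obtain ⟨k, hk⟩ := hc0
    exact key k 0 hk
  · exact absurd ⟨c, Nat.zero_add c⟩ hc0

theorem ppow_of_no_pprime {p : ℕ} [Fact p.Prime] {G : Type*} [Group G] [Finite G]
    (M : Subgroup G) (h : ∀ y ∈ M, (orderOf y).Coprime p → y = 1) :
    ∀ g ∈ M, ∃ k : ℕ, g ^ p ^ k = 1 := by
  have hp : p.Prime := Fact.out
  intro g hg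
  obtain ⟨e, n', hn', he⟩ := Nat.exists_eq_pow_mul_and_not_dvd (orderOf_pos g).ne' p hp.ne_one
  refine ⟨e, h _ (M.pow_mem hg _) ?_⟩
  have h1 : (g ^ p ^ e) ^ n' = 1 := by
    rw [← pow_mul, ← he, pow_orderOf_eq_one]
  have h2 : orderOf (g ^ p ^ e) ∣ n' := orderOf_dvd_of_pow_eq_one h1
  exact Nat.Coprime.coprime_dvd_left h2 ((Nat.Prime.coprime_iff_not_dvd hp).mpr hn').symm

theorem mem_of_coprime_sup {p : ℕ} [Fact p.Prime] {G : Type*} [Group G] [Finite G]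
    (C B : Subgroup G) [hC : C.Normal] (hB : ∀ b ∈ B, ∃ k : ℕ, b ^ p ^ k = 1) (y : G)
    (hy : y ∈ C ⊔ B) (hcop : (orderOf y).Coprime p) : y ∈ C := by
  obtain ⟨c, hc, b, hb, rfl⟩ := Subgroup.mem_sup_of_normal_left.mp hy
  obtain ⟨k, hk⟩ := hB b hb
  have h1 : ((c * b : G) : G ⧸ C) ^ p ^ k = 1 := by
    rw [← QuotientGroup.mk_pow, QuotientGroup.eq_one_iff]
    have h2 : ((c * b : G) : G ⧸ C) = (b : G ⧸ C) := by
      rw [QuotientGroup.mk_mul, (QuotientGroup.eq_one_iff c).mpr hc, one_mul]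
    have h3 : (((c * b) ^ p ^ k : G) : G ⧸ C) = ((b ^ p ^ k : G) : G ⧸ C) := by
      rw [QuotientGroup.mk_pow, QuotientGroup.mk_pow, h2]
    rw [← QuotientGroup.eq_one_iff, h3, hk]
    rfl
  have h4 : ((c * b : G) : G ⧸ C) ^ orderOf (c * b) = 1 := by
    rw [← QuotientGroup.mk_pow, pow_orderOf_eq_one]
    rfl
  have h5 : orderOf ((c * b : G) : G ⧸ C) = 1 :=
    Nat.eq_one_of_dvd_coprimes (Nat.Coprime.pow_right k hcop) (orderOf_dvd_of_pow_eq_one h4)
      (orderOf_dvd_of_pow_eq_one h1)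
  rw [orderOf_eq_one_iff] at h5
  exact (QuotientGroup.eq_one_iff _).mp h5

/-! ### the setting -/

/-- All quotients of `G` by normal subgroups are `p`-stable (normalizer form, as `QStabN`),
`C_G(O_p(G)) ≤ O_p(G)`, and `A` is a normal subgroup of critical type inside `O_p(G)`. -/
structure SettingN (p : ℕ) (G : Type u) [Group G] (A : Subgroup G) : Prop where
  hst : QStabN p G
  hC : Subgroup.centralizer ((pCore p G : Subgroup G) : Set G) ≤ pCore p G
  hAn : A.Normal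
  hAT : A ≤ pCore p G
  hA2 : ⁅A, A⁆ ≤ Subgroup.centralizer (A : Set G)
  hA3 : ⁅pCore p G, A⁆ ≤ A ⊓ Subgroup.centralizer (A : Set G)
  hA4 : pCore p G ⊓ Subgroup.centralizer (A : Set G) ≤ A

section coreN

variable {p : ℕ} [Fact p.Prime] {G : Type u} [Group G] [Finite G]

variable {A : Subgroup G} (h : SettingN p G A)

include h

theorem pel_of_centN (x : G) (hx : x ∈ Subgroup.centralizer (A : Set G)) :
    ∃ k : ℕ, x ^ p ^ k = 1 := by
  haveI := h.hAn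
  haveI hTn : (pCore p G).Normal := pCore_normal' p
  have hNp : IsPGroup p ↥(pCore p G ⊓ Subgroup.centralizer (A : Set G)) :=
    (Cfsg.Agent.Lib.Helper9.pCore_isPGroup p G).to_le inf_le_left
  obtain ⟨k, hk⟩ := pc_stab (pCore p G) (pCore p G ⊓ Subgroup.centralizer (A : Set G)) hNp x
    (fun n t ht => hTn.conj_mem t ht _)
    ⟨0, fun y hy => by
      rw [pow_zero, pow_one, commutatorElement_eq_one_iff_mul_comm]
      exact (Subgroup.mem_centralizer_iff.mp hx) y (h.hA4 hy)⟩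
    ⟨0, fun t ht => by
      rw [pow_zero, pow_one]
      constructor
      · have e : ⁅t, x⁆ = t * (x * t⁻¹ * x⁻¹) := by simp only [commutatorElement_def]; group
        rw [e]
        exact (pCore p G).mul_mem ht (hTn.conj_mem _ ((pCore p G).inv_mem ht) x)
      · have e : ⁅t, x⁆ = (t * x * t⁻¹) * x⁻¹ := by simp only [commutatorElement_def]
        rw [e]
        exact Subgroup.mul_mem _ (Subgroup.Normal.conj_mem inferInstance x hx t)
          (Subgroup.inv_mem _ hx)⟩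
  have h1 : x ^ p ^ k ∈ pCore p G := h.hC (Subgroup.mem_centralizer_iff.mpr
    (fun t ht => commutatorElement_eq_one_iff_mul_comm.mp (hk t ht)))
  obtain ⟨k', hk'⟩ := ppow_T (x ^ p ^ k) h1
  exact ⟨k + k', by rw [pow_add, pow_mul]; exact hk'⟩

theorem pel_of_pc1N (d : G) (h1 : ∃ k : ℕ, ∀ x ∈ A, ⁅x, d ^ p ^ k⁆ ∈ (⊥ : Subgroup G)) :
    ∃ k : ℕ, d ^ p ^ k = 1 := by
  obtain ⟨k, hk⟩ := h1
  obtain ⟨k', hk'⟩ := pel_of_centN h (d ^ p ^ k) (Subgroup.mem_centralizer_iff.mpr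
    (fun t ht => commutatorElement_eq_one_iff_mul_comm.mp (Subgroup.mem_bot.mp (hk t ht))))
  exact ⟨k + k', by rw [pow_add, pow_mul]; exact hk'⟩

theorem pel_of_pc2N (N : Subgroup G) (hNA : N ≤ A) (d : G)
    (h1 : ∃ k : ℕ, ∀ x ∈ N, ⁅x, d ^ p ^ k⁆ ∈ (⊥ : Subgroup G))
    (h2 : ∃ k : ℕ, ∀ x ∈ A, ⁅x, d ^ p ^ k⁆ ∈ N) : ∃ k : ℕ, d ^ p ^ k = 1 := by
  have hNp : IsPGroup p ↥N :=
    (Cfsg.Agent.Lib.Helper9.pCore_isPGroup p G).to_le (hNA.trans h.hAT)
  obtain ⟨k₁, hk₁⟩ := h1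
  obtain ⟨k, hk⟩ := pc_stab A N hNp d (fun n t ht => h.hAn.conj_mem t ht _)
    ⟨k₁, fun x hx => Subgroup.mem_bot.mp (hk₁ x hx)⟩ h2
  obtain ⟨k', hk'⟩ := pel_of_centN h (d ^ p ^ k) (Subgroup.mem_centralizer_iff.mpr
    (fun t ht => commutatorElement_eq_one_iff_mul_comm.mp (hk t ht)))
  exact ⟨k + k', by rw [pow_add, pow_mul]; exact hk'⟩

theorem mem_of_quadN (g : G) (hq : ⁅⁅A, Subgroup.zpowers g⁆, Subgroup.zpowers g⁆ = ⊥) :
    g ∈ pCore p G := by
  haveI := h.hAn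
  obtain ⟨D, -, hKD, hgD, hD⟩ := h.hst ⊤ A ⊥ inferInstance bot_le le_top
    (Subgroup.normalizer_eq_top_iff.mpr h.hAn).ge
    (fun x hx => by
      obtain ⟨k, hk⟩ := ppow_T x (h.hAT hx)
      exact ⟨k, by rw [hk]; exact Subgroup.one_mem _⟩)
    g (Subgroup.mem_top g) hq.le
  exact hsub ⊤ D le_top hKD (fun d hd => pel_of_pc1N h d (hD d hd)) hgD

theorem mem_of_quad2N (g : G)
    (hq1 : ⁅⁅A ⊓ Subgroup.centralizer (A : Set G), Subgroup.zpowers g⁆, Subgroup.zpowers g⁆ = ⊥)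
    (hq2 : ⁅⁅A, Subgroup.zpowers g⁆, Subgroup.zpowers g⁆ ≤
      A ⊓ Subgroup.centralizer (A : Set G)) : g ∈ pCore p G := by
  haveI := h.hAn
  have hZn : (A ⊓ Subgroup.centralizer (A : Set G)).Normal := inferInstance
  obtain ⟨D₁, -, hKD₁, hgD₁, hD₁⟩ := h.hst ⊤ (A ⊓ Subgroup.centralizer (A : Set G)) ⊥
    inferInstance bot_le le_top
    (Subgroup.normalizer_eq_top_iff.mpr hZn).ge
    (fun x hx => by
      obtain ⟨k, hk⟩ := ppow_T x (h.hAT hx.1)
      exact ⟨k, by rw [hk]; exact Subgroup.one_mem _⟩)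
    g (Subgroup.mem_top g) hq1.le
  obtain ⟨D₂, -, hKD₂, hgD₂, hD₂⟩ := h.hst ⊤ A (A ⊓ Subgroup.centralizer (A : Set G)) hZn
    inf_le_left le_top
    (Subgroup.normalizer_eq_top_iff.mpr h.hAn).ge
    (fun x hx => by
      obtain ⟨k, hk⟩ := ppow_T x (h.hAT hx)
      exact ⟨k, by rw [hk]; exact Subgroup.one_mem _⟩)
    g (Subgroup.mem_top g) hq2
  exact hsub ⊤ (D₁ ⊓ D₂) le_top (le_normalizer_inf hKD₁ hKD₂)
    (fun d hd => pel_of_pc2N h _ inf_le_left d (hD₁ d hd.1) (hD₂ d hd.2)) ⟨hgD₁, hgD₂⟩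

theorem upper_leN {Q B : Subgroup G} (hB : B ∈ kUpperStarFamily Q) (hAQ : A ≤ Q) :
    B ≤ pCore p G := by
  intro b hb
  exact mem_of_quadN h b
    (quad_of_comm_le B A ((Subgroup.commutator_mono le_rfl hAQ).trans hB.2) b hb)

theorem A_mem_lower'N (Q : Subgroup G) : A ∈ kLowerStarFamily Q := by
  haveI := h.hAn
  refine ⟨h.hA2, ?_, ?_⟩
  · rw [Subgroup.normalizer_eq_top]
    exact le_top
  · intro A' hA' _ hAn' hc1 hc2
    have hA'T : A' ≤ pCore p G := by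
      intro a ha
      have haA : Subgroup.zpowers a ≤ A' := Subgroup.zpowers_le.mpr ha
      apply mem_of_quad2N h
      · rw [eq_bot_iff, ← hc2]
        exact Subgroup.commutator_mono (Subgroup.commutator_mono le_rfl haA) haA
      · have h1 : ⁅A, A'⁆ ≤ A' := comm_le_of_le_normalizer hAn'
        have h2 : ⁅⁅A, Subgroup.zpowers a⁆, Subgroup.zpowers a⁆ ≤ ⁅A', A'⁆ :=
          Subgroup.commutator_mono ((Subgroup.commutator_mono le_rfl haA).trans h1) haA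
        have h3 : ⁅⁅A, Subgroup.zpowers a⁆, Subgroup.zpowers a⁆ ≤ A :=
          (Subgroup.commutator_mono (Subgroup.commutator_le_left A _) le_rfl).trans
            (Subgroup.commutator_le_left A _)
        have h4 : ⁅A', A'⁆ ≤ Subgroup.centralizer (A : Set G) :=
          Subgroup.le_centralizer_iff.mp (Subgroup.commutator_eq_bot_iff_le_centralizer.mp hc1)
        exact le_inf h3 (h2.trans h4)
    calc ⁅A, A'⁆ ≤ ⁅A, pCore p G⁆ := Subgroup.commutator_mono le_rfl hA'T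
      _ = ⁅pCore p G, A⁆ := Subgroup.commutator_comm _ _
      _ ≤ _ := h.hA3

/-- The replacement of the section `A / A₁` of `KInfStable.lower_le`: commutators of `b` with
`C` lie in `O_p(G)`.  Only sections `D / V` with `V` normal in `G` are used. -/
theorem comm_mem_core (C B A₁ H : Subgroup G) [hCn : C.Normal] (hH : H = C ⊔ B)
    (hAH : A ≤ H) (hBp : ∀ b ∈ B, ∃ k : ℕ, b ^ p ^ k = 1) (b : G) (hbH : b ∈ H)
    (hq3 : ⁅⁅A, Subgroup.zpowers b⁆, Subgroup.zpowers b⁆ ≤ A₁)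
    (D₃ : Subgroup G) (hHD₃ : H ≤ Subgroup.normalizer (D₃ : Set G)) (hbD₃ : b ∈ D₃)
    (hD₃ : ∀ d ∈ D₃, ∃ k : ℕ, ∀ x ∈ A₁, ⁅x, d ^ p ^ k⁆ ∈ (⊥ : Subgroup G)) :
    ∀ c ∈ C, ⁅c, b⁆ ∈ pCore p G := by
  haveI hAn := h.hAn
  haveI hTn : (pCore p G).Normal := pCore_normal' p
  have hp : p.Prime := Fact.out
  have hCH : C ≤ H := hH ▸ le_sup_left
  -- the normal closure of `b` in `H`
  obtain ⟨M, hM⟩ : ∃ M : Subgroup G,
      M = Subgroup.closure {x : G | ∃ t ∈ H, x = t * b * t⁻¹} := ⟨_, rfl⟩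
  have hbM : b ∈ M := by
    rw [hM]
    exact Subgroup.subset_closure ⟨1, H.one_mem, by simp⟩
  have hMH : M ≤ H := by
    rw [hM, Subgroup.closure_le]
    rintro _ ⟨t, ht, rfl⟩
    exact H.mul_mem (H.mul_mem ht hbH) (H.inv_mem ht)
  have hHM : DInv H M := by
    intro t ht x hx
    have h1 : M.map (MulAut.conj t).toMonoidHom ≤ M := by
      rw [hM, MonoidHom.map_closure, Subgroup.closure_le]
      rintro _ ⟨_, ⟨s, hs, rfl⟩, rfl⟩
      apply Subgroup.subset_closure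
      refine ⟨t * s, H.mul_mem ht hs, ?_⟩
      show t * (s * b * s⁻¹) * t⁻¹ = _
      group
    exact h1 ⟨x, hx, rfl⟩
  have hMmin : ∀ D : Subgroup G, b ∈ D → H ≤ Subgroup.normalizer (D : Set G) → M ≤ D := by
    intro D hbD hHD
    rw [hM, Subgroup.closure_le]
    rintro _ ⟨t, ht, rfl⟩
    exact conj_mem_of_le_normalizer hHD ht hbD
  -- `M` has no nontrivial elements of order prime to `p`
  have hclaim : ∀ y ∈ M, (orderOf y).Coprime p → y = 1 := by
    intro y hyM hycop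
    by_contra hy1
    obtain ⟨Y₁, hY₁⟩ : ∃ Y₁ : Subgroup G,
        Y₁ = Subgroup.closure {z : G | z ∈ M ∧ (orderOf z).Coprime p} := ⟨_, rfl⟩
    have hyY₁ : y ∈ Y₁ := by
      rw [hY₁]
      exact Subgroup.subset_closure ⟨hyM, hycop⟩
    have hY₁C : Y₁ ≤ C := by
      rw [hY₁, Subgroup.closure_le]
      rintro z ⟨hzM, hzcop⟩
      exact mem_of_coprime_sup C B hBp z (hH ▸ hMH hzM) hzcop
    have hHY₁ : DInv H Y₁ := by
      intro t ht x hx
      have h1 : Y₁.map (MulAut.conj t).toMonoidHom ≤ Y₁ := by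
        rw [hY₁, MonoidHom.map_closure, Subgroup.closure_le]
        rintro _ ⟨z, ⟨hzM, hzcop⟩, rfl⟩
        apply Subgroup.subset_closure
        refine ⟨hHM t ht z hzM, ?_⟩
        have e : orderOf ((MulAut.conj t).toMonoidHom z) = orderOf z :=
          MulEquiv.orderOf_eq (MulAut.conj t) z
        rw [e]
        exact hzcop
      exact h1 ⟨x, hx, rfl⟩
    have hY₁A₁ : ∀ z ∈ Y₁, ∀ x ∈ A₁, ⁅x, z⁆ = 1 := by
      have h1 : Y₁ ≤ Subgroup.centralizer (A₁ : Set G) := by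
        rw [hY₁, Subgroup.closure_le]
        rintro z ⟨hzM, hzcop⟩
        obtain ⟨k, hk⟩ := hD₃ z (hMmin D₃ hbD₃ hHD₃ hzM)
        have h2 := cent_of_pow_coprime A₁ ⊥ z (p ^ k) (Nat.Coprime.pow_left k hzcop.symm) hk
        show z ∈ Subgroup.centralizer (A₁ : Set G)
        rw [Subgroup.mem_centralizer_iff]
        intro x hx
        exact commutatorElement_eq_one_iff_mul_comm.mp (Subgroup.mem_bot.mp (h2 x hx))
      intro z hz x hx
      exact commutatorElement_eq_one_iff_mul_comm.mpr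
        ((Subgroup.mem_centralizer_iff.mp (h1 hz)) x hx)
    have hyA : ¬ ∀ x ∈ A, ⁅x, y⁆ = 1 := by
      intro hcen
      obtain ⟨k, hk⟩ := pel_of_centN h y (Subgroup.mem_centralizer_iff.mpr
        (fun x hx => commutatorElement_eq_one_iff_mul_comm.mp (hcen x hx)))
      apply hy1
      have h1 : orderOf y ∣ p ^ k := orderOf_dvd_of_pow_eq_one hk
      have h2 : orderOf y = 1 :=
        Nat.eq_one_of_dvd_coprimes (Nat.Coprime.pow_right k hycop) dvd_rfl h1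
      exact orderOf_eq_one_iff.mp h2
    -- a chief factor of `G` inside `A` on which `y` acts nontrivially
    obtain ⟨N, hN0, hNn, hNanti, -, hNch, hNc⟩ :=
      exists_chief_series (⊥ : Subgroup G) A bot_le
    have hNA : ∀ m, N m ≤ A := fun m => hN0 ▸ N_antitone N hNanti (Nat.zero_le m)
    have hNp : ∀ m, IsPGroup p ↥(N m) := fun m =>
      (Cfsg.Agent.Lib.Helper9.pCore_isPGroup p G).to_le ((hNA m).trans h.hAT)
    have hex : ∃ m, ∃ x ∈ N m, ⁅x, y⁆ ∉ N (m + 1) := by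
      by_contra hcon
      push Not at hcon
      apply hyA
      have h1 := cent_of_chain N hNn hNp hNc y hycop hcon
      rw [hN0] at h1
      exact h1
    obtain ⟨m, x₀, hx₀, hx₀y⟩ := hex
    have hUV : IsChiefFactor (N m) (N (m + 1)) := by
      rcases hNch m with h1 | h1
      · exfalso
        apply hx₀y
        rw [h1, Subgroup.mem_bot] at hx₀
        rw [hx₀, commutatorElement_one_left]
        exact Subgroup.one_mem _
      · exact h1
    obtain ⟨U, hU⟩ : ∃ U : Subgroup G, U = N m := ⟨_, rfl⟩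
    obtain ⟨V, hV⟩ : ∃ V : Subgroup G, V = N (m + 1) := ⟨_, rfl⟩
    rw [← hU, ← hV] at hUV
    rw [← hU] at hx₀
    rw [← hV] at hx₀y
    have hUA : U ≤ A := hU ▸ hNA m
    haveI hUn : U.Normal := hUV.2.1
    haveI hVn : V.Normal := hUV.2.2.1
    have hVU : V ≤ U := hUV.1.le
    have hUp : IsPGroup p ↥U := hU ▸ hNp m
    have hTnil : ∃ c : ℕ, (pCore p G).lowerCentralSeries c = ⊥ :=
      (Subgroup.isNilpotent_iff_lowerCentralSeries (pCore p G)).mp
        (Cfsg.Agent.Lib.Helper9.pCore_isPGroup p G).isNilpotent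
    have hab : ⁅U, U⁆ ≤ V :=
      (Subgroup.commutator_mono le_rfl (hUA.trans h.hAT)).trans
        (chief_central hUV (pCore p G) hTnil (hUA.trans h.hAT))
    obtain ⟨D, hD⟩ : ∃ D : Subgroup G, D = ⁅U, Y₁⁆ ⊔ V := ⟨_, rfl⟩
    have hVD : V ≤ D := hD ▸ le_sup_right
    have hUY₁ : ⁅U, Y₁⁆ ≤ U := Subgroup.commutator_le_left U Y₁
    have hDU : D ≤ U := hD ▸ sup_le hUY₁ hVU
    have hDH : D ≤ H := hDU.trans (hUA.trans hAH)
    have hHD : DInv H D := by
      rw [hD]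
      apply dinv_sup
      · intro t ht x hx
        have h1 : (⁅U, Y₁⁆).map (MulAut.conj t).toMonoidHom ≤ ⁅U, Y₁⁆ := by
          rw [Subgroup.map_commutator]
          apply Subgroup.commutator_mono
          · rintro _ ⟨u, hu, rfl⟩
            exact hUn.conj_mem u hu t
          · rintro _ ⟨z, hz, rfl⟩
            exact hHY₁ t ht z hz
        exact h1 ⟨x, hx, rfl⟩
      · exact dinv_of_normal H V
    have hHDn : H ≤ Subgroup.normalizer (D : Set G) := le_normalizer_of_conj_mem hHD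
    have hquad : ⁅⁅D, Subgroup.zpowers b⁆, Subgroup.zpowers b⁆ ≤ V := by
      have hzb : Subgroup.zpowers b ≤ H := Subgroup.zpowers_le.mpr hbH
      have h1 : ⁅D, Subgroup.zpowers b⁆ ≤ D :=
        (Subgroup.commutator_mono le_rfl hzb).trans (comm_le_of_dinv hHD)
      have h2 : ⁅⁅D, Subgroup.zpowers b⁆, Subgroup.zpowers b⁆ ≤ D :=
        (Subgroup.commutator_mono h1 le_rfl).trans h1
      have h3 : ⁅⁅D, Subgroup.zpowers b⁆, Subgroup.zpowers b⁆ ≤ A₁ :=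
        (Subgroup.commutator_mono (Subgroup.commutator_mono (hDU.trans hUA) le_rfl)
          le_rfl).trans hq3
      intro w hw
      apply clifford_fix hUV hab C Y₁ hY₁C (fun t ht => hHY₁ t (hCH ht)) w
      · rw [← hD]
        exact h2 hw
      · intro z hz
        rw [hY₁A₁ z hz w (h3 hw)]
        exact V.one_mem
    have hpow : ∀ x ∈ D, ∃ k : ℕ, x ^ p ^ k ∈ V := by
      intro x hx
      obtain ⟨k, hk⟩ := ppow_T (p := p) x (h.hAT (hUA (hDU hx)))
      exact ⟨k, by rw [hk]; exact V.one_mem⟩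
    obtain ⟨D₅, -, hHD₅, hbD₅, hD₅⟩ := h.hst H D V hVn hVD hDH hHDn hpow b hbH hquad
    obtain ⟨k, hk⟩ := hD₅ y (hMmin D₅ hbD₅ hHD₅ hyM)
    have hDy := cent_of_pow_coprime D V y (p ^ k) (Nat.Coprime.pow_left k hycop.symm) hk
    have hfin := coprime_central_of_quad U V hUp y hycop (fun x hx => hDy _ (by
      rw [hD]
      exact Subgroup.mem_sup_left (Subgroup.commutator_mem_commutator hx hyY₁)))
    exact hx₀y (hfin x₀ hx₀)
  have hMp := ppow_of_no_pprime (p := p) M hclaim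
  have hFT : M ⊓ C ≤ pCore p G := by
    apply hsub C _ inf_le_right _ (fun d hd => hMp d hd.1)
    apply le_normalizer_of_conj_mem
    intro c hc f hf
    exact ⟨hHM c (hCH hc) f hf.1,
      Subgroup.mul_mem _ (Subgroup.mul_mem _ hc hf.2) (Subgroup.inv_mem _ hc)⟩
  intro c hc
  apply hFT
  constructor
  · have e : ⁅c, b⁆ = (c * b * c⁻¹) * b⁻¹ := by simp only [commutatorElement_def]
    rw [e]
    exact M.mul_mem (hHM c (hCH hc) b hbM) (M.inv_mem hbM)
  · have e' : ⁅c, b⁆ = c * (b * c⁻¹ * b⁻¹) := by simp only [commutatorElement_def]; group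
    rw [e']
    exact Subgroup.mul_mem _ hc (hCn.conj_mem _ (Subgroup.inv_mem _ hc) b)

theorem lower_leN {Q B : Subgroup G} (hB : B ∈ kLowerStarFamily Q) (hAQ : A ≤ Q)
    (hBp : ∀ b ∈ B, ∃ k : ℕ, b ^ p ^ k = 1) : B ≤ pCore p G := by
  haveI hAn := h.hAn
  haveI hTn : (pCore p G).Normal := pCore_normal' p
  have hB1 : ⁅B, B⁆ ≤ Subgroup.centralizer (B : Set G) := hB.1
  have hAZB : A ≤ Subgroup.normalizer
      ((B ⊓ Subgroup.centralizer (B : Set G) : Subgroup G) : Set G) :=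
    le_normalizer_center (hAQ.trans hB.2.1)
  have hZBT : B ⊓ Subgroup.centralizer (B : Set G) ≤ pCore p G := by
    intro z hz
    apply mem_of_quadN h
    have hzZ : Subgroup.zpowers z ≤ B ⊓ Subgroup.centralizer (B : Set G) :=
      Subgroup.zpowers_le.mpr hz
    rw [eq_bot_iff, ← center_abelian B]
    exact Subgroup.commutator_mono
      ((Subgroup.commutator_mono le_rfl hzZ).trans (comm_le_of_le_normalizer hAZB)) hzZ
  have hA'A : ⁅A, A⁆ ≤ A := Subgroup.commutator_le_left A A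
  have hCA : Subgroup.centralizer (A : Set G) ≤
      Subgroup.centralizer ((⁅A, A⁆ : Subgroup G) : Set G) :=
    Subgroup.centralizer_le (SetLike.coe_subset_coe.mpr hA'A)
  have hA'ab : ⁅⁅A, A⁆, ⁅A, A⁆⁆ = ⊥ :=
    Subgroup.commutator_eq_bot_iff_le_centralizer.mpr (h.hA2.trans hCA)
  have hTA : ⁅pCore p G, A⁆ ≤ Subgroup.centralizer (A : Set G) := h.hA3.trans inf_le_right
  have hTC : pCore p G ≤ Subgroup.centralizer ((⁅A, A⁆ : Subgroup G) : Set G) := by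
    have e1 : ⁅⁅A, pCore p G⁆, A⁆ = ⊥ := by
      rw [Subgroup.commutator_eq_bot_iff_le_centralizer, Subgroup.commutator_comm]
      exact hTA
    have e2 : ⁅⁅pCore p G, A⁆, A⁆ = ⊥ := Subgroup.commutator_eq_bot_iff_le_centralizer.mpr hTA
    have e3 : ⁅⁅A, A⁆, pCore p G⁆ = ⊥ := Subgroup.commutator_commutator_eq_bot_of_rotate e1 e2
    exact Subgroup.le_centralizer_iff.mp (Subgroup.commutator_eq_bot_iff_le_centralizer.mp e3)
  intro b hb
  have hbB : Subgroup.zpowers b ≤ B := Subgroup.zpowers_le.mpr hb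
  have hq1 : ⁅⁅⁅A, A⁆, Subgroup.zpowers b⁆, Subgroup.zpowers b⁆ = ⊥ :=
    quad_of_comm_le B ⁅A, A⁆ (lower_abelian_normal hB ⁅A, A⁆ hA'ab (hA'A.trans hAQ)) b hb
  obtain ⟨G₁, -, hG₁n, hbG₁, hG₁⟩ := h.hst ⊤ ⁅A, A⁆ ⊥ inferInstance bot_le le_top
    (Subgroup.normalizer_eq_top_iff.mpr inferInstance).ge
    (fun x hx => by
      obtain ⟨k, hk⟩ := ppow_T x (h.hAT (hA'A hx))
      exact ⟨k, by rw [hk]; exact Subgroup.one_mem _⟩)
    b (Subgroup.mem_top b) hq1.le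
  obtain ⟨A₁, hA₁⟩ := exists_commSub A (fun _ : Unit => A)
    (fun _ => ⁅A, A⁆ ⊓ Subgroup.centralizer (B : Set G))
    (fun _ t ht y hy => by
      have h1 := (Subgroup.mem_centralizer_iff.mp (h.hA2 hy.1)) t ht
      have e : t * y * t⁻¹ = y := by rw [h1, mul_inv_cancel_right]
      rw [e]
      exact hy)
  have hA₁A : A₁ ≤ A := fun t ht => ((hA₁ t).mp ht).1
  have hconjA₁ : ∀ x : G,
      (∀ y ∈ ⁅A, A⁆ ⊓ Subgroup.centralizer (B : Set G), x * y = y * x) →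
      ∀ t ∈ A₁, x * t * x⁻¹ ∈ A₁ := by
    intro x hx t ht
    obtain ⟨ht1, ht2⟩ := (hA₁ t).mp ht
    refine (hA₁ _).mpr ⟨hAn.conj_mem t ht1 x, fun _ a ha => ?_⟩
    have h1 := ht2 () (x⁻¹ * a * x⁻¹⁻¹) (hAn.conj_mem a ha x⁻¹)
    have e : ⁅a, x * t * x⁻¹⁆ = x * ⁅x⁻¹ * a * x⁻¹⁻¹, t⁆ * x⁻¹ := by
      simp only [commutatorElement_def]; group
    rw [e, hx _ h1, mul_inv_cancel_right]
    exact h1
  obtain ⟨H, hH⟩ : ∃ H : Subgroup G,
      H = Subgroup.centralizer ((⁅A, A⁆ : Subgroup G) : Set G) ⊔ B := ⟨_, rfl⟩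
  have hCH : Subgroup.centralizer ((⁅A, A⁆ : Subgroup G) : Set G) ≤ H := hH ▸ le_sup_left
  have hBH : B ≤ H := hH ▸ le_sup_right
  have hHA₁ : H ≤ Subgroup.normalizer (A₁ : Set G) := by
    rw [hH]
    apply sup_le
    · apply le_normalizer_of_conj_mem
      intro c hc t ht
      exact hconjA₁ c (fun y hy => ((Subgroup.mem_centralizer_iff.mp hc) y hy.1).symm) t ht
    · apply le_normalizer_of_conj_mem
      intro c hc t ht
      exact hconjA₁ c (fun y hy => (Subgroup.mem_centralizer_iff.mp hy.2) c hc) t ht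
  have hCAA₁ : Subgroup.centralizer (A : Set G) ≤ Subgroup.centralizer (A₁ : Set G) :=
    Subgroup.centralizer_le (SetLike.coe_subset_coe.mpr hA₁A)
  have hA₁2 : A₁ ∈ classTwoSubgroups G := by
    show ⁅A₁, A₁⁆ ≤ Subgroup.centralizer (A₁ : Set G)
    exact (Subgroup.commutator_mono hA₁A hA₁A).trans (h.hA2.trans hCAA₁)
  have hcomm1 : ⁅B, ⁅A₁, A₁⁆⁆ = ⊥ := by
    rw [Subgroup.commutator_eq_bot_iff_le_centralizer, Subgroup.le_centralizer_iff,
      Subgroup.commutator_le]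
    intro a ha t ht
    exact (((hA₁ t).mp ht).2 () a (hA₁A ha)).2
  have hcomm2 : ⁅⁅B ⊓ Subgroup.centralizer (B : Set G), A₁⁆, A₁⁆ = ⊥ := by
    rw [Subgroup.commutator_eq_bot_iff_le_centralizer]
    exact (Subgroup.commutator_mono hZBT hA₁A).trans (hTA.trans hCAA₁)
  have hlow := hB.2.2 A₁ hA₁2 (hA₁A.trans hAQ) (hBH.trans hHA₁) hcomm1 hcomm2
  have hq2 : ⁅⁅A₁, Subgroup.zpowers b⁆, Subgroup.zpowers b⁆ = ⊥ := quad_of_comm_le B A₁ hlow b hb
  have hAB : ⁅A, B⁆ ≤ B := comm_le_of_le_normalizer (hAQ.trans hB.2.1)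
  have hBB : ⁅B, B⁆ ≤ B := comm_le_of_le_normalizer Subgroup.le_normalizer
  have hq3 : ⁅⁅A, Subgroup.zpowers b⁆, Subgroup.zpowers b⁆ ≤ A₁ := by
    have h1 : ⁅⁅A, Subgroup.zpowers b⁆, Subgroup.zpowers b⁆ ≤ ⁅⁅A, B⁆, B⁆ :=
      Subgroup.commutator_mono (Subgroup.commutator_mono le_rfl hbB) hbB
    have h2 : ⁅⁅A, B⁆, B⁆ ≤ A :=
      (Subgroup.commutator_mono (Subgroup.commutator_le_left A B) le_rfl).trans
        (Subgroup.commutator_le_left A B)
    have h3 : ⁅⁅A, B⁆, B⁆ ≤ B ⊓ Subgroup.centralizer (B : Set G) :=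
      (Subgroup.commutator_mono hAB le_rfl).trans (le_inf hBB hB1)
    intro w hw
    have hwA : w ∈ A := h2 (h1 hw)
    have hwZ : w ∈ B ⊓ Subgroup.centralizer (B : Set G) := h3 (h1 hw)
    refine (hA₁ w).mpr ⟨hwA, fun _ a ha => ⟨Subgroup.commutator_mem_commutator ha hwA, ?_⟩⟩
    have h4 : a * w * a⁻¹ ∈ B ⊓ Subgroup.centralizer (B : Set G) :=
      conj_mem_of_le_normalizer hAZB ha hwZ
    have e : ⁅a, w⁆ = (a * w * a⁻¹) * w⁻¹ := by simp only [commutatorElement_def]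
    rw [e]
    exact (Subgroup.mul_mem _ h4 (Subgroup.inv_mem _ hwZ)).2
  have hbH : b ∈ H := hBH hb
  have hAH : A ≤ H := h.hAT.trans (hTC.trans hCH)
  obtain ⟨D₃, hD₃H, hHD₃, hbD₃, hD₃⟩ := h.hst H A₁ ⊥ inferInstance bot_le (hA₁A.trans hAH)
    hHA₁
    (fun x hx => by
      obtain ⟨k, hk⟩ := ppow_T x (h.hAT (hA₁A hx))
      exact ⟨k, by rw [hk]; exact Subgroup.one_mem _⟩)
    b hbH hq2.le
  have hcomm : ∀ c ∈ Subgroup.centralizer ((⁅A, A⁆ : Subgroup G) : Set G),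
      ⁅c, b⁆ ∈ pCore p G :=
    comm_mem_core h (Subgroup.centralizer ((⁅A, A⁆ : Subgroup G) : Set G)) B A₁ H hH hAH hBp
      b hbH hq3 D₃ hHD₃ hbD₃ hD₃
  obtain ⟨π, hπ⟩ : ∃ π : G →* G ⧸ pCore p G, π = QuotientGroup.mk' (pCore p G) := ⟨_, rfl⟩
  have hπs : Function.Surjective π := hπ ▸ QuotientGroup.mk'_surjective _
  have hπ1 : ∀ x : G, π x = 1 ↔ x ∈ pCore p G := by
    intro x
    rw [hπ, QuotientGroup.mk'_apply, QuotientGroup.eq_one_iff]
  haveI hNn : ((Subgroup.centralizer ((⁅A, A⁆ : Subgroup G) : Set G)).map π).Normal :=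
    Subgroup.Normal.map inferInstance π hπs
  have hG₁normal : G₁.Normal := Subgroup.normalizer_eq_top_iff.mp (top_le_iff.mp hG₁n)
  haveI hG₁n' : (G₁.map π).Normal := hG₁normal.map π hπs
  have hfin := eq_one_of_central_pquot (Cfsg.Agent.Lib.Helper9.pCore_quotient_eq_bot p G)
    ((Subgroup.centralizer ((⁅A, A⁆ : Subgroup G) : Set G)).map π)
    (G₁.map π ⊓ Subgroup.centralizer
      (((Subgroup.centralizer ((⁅A, A⁆ : Subgroup G) : Set G)).map π :
        Subgroup (G ⧸ pCore p G)) : Set (G ⧸ pCore p G)))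
    inf_le_right
    (by
      rintro y ⟨⟨d, hd, rfl⟩, -⟩
      obtain ⟨k, hk⟩ := hG₁ d hd
      refine ⟨k, d ^ p ^ k, ?_, map_pow _ _ _⟩
      exact Subgroup.mem_centralizer_iff.mpr (fun t ht =>
        commutatorElement_eq_one_iff_mul_comm.mp (Subgroup.mem_bot.mp (hk t ht))))
    (π b)
    ⟨⟨b, hbG₁, rfl⟩, by
      show π b ∈ Subgroup.centralizer
        (((Subgroup.centralizer ((⁅A, A⁆ : Subgroup G) : Set G)).map π :
          Subgroup (G ⧸ pCore p G)) : Set (G ⧸ pCore p G))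
      rw [Subgroup.mem_centralizer_iff]
      rintro _ ⟨c, hc, rfl⟩
      rw [← commutatorElement_eq_one_iff_mul_comm, ← map_commutatorElement, hπ1]
      exact hcomm c hc⟩
    (by
      obtain ⟨k, hk⟩ := hBp b hb
      exact ⟨k, by rw [← map_pow, hk, map_one]⟩)
  exact (hπ1 b).mp hfin

end coreN

/-- In a finite group all of whose quotients by normal subgroups are `p`-stable (normalizer
form), with `C_G(O_p(G)) ≤ O_p(G)`, both K-infinity subgroups of a Sylow `p`-subgroup are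
normal. -/
theorem kinf_normal_of_qstable {p : ℕ} [Fact p.Prime] {G : Type u} [Group G] [Finite G]
    (hst : QStabN p G)
    (hC : Subgroup.centralizer ((pCore p G : Subgroup G) : Set G) ≤ pCore p G)
    (S : Sylow p G) :
    ((kInfLower ↥(S : Subgroup G)).map (S : Subgroup G).subtype).Normal ∧
      ((kInfUpper ↥(S : Subgroup G)).map (S : Subgroup G).subtype).Normal := by
  haveI hTn : (pCore p G).Normal := pCore_normal' p
  have hTS : pCore p G ≤ (S : Subgroup G) := pCore_le_sylow S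
  have hTp : IsPGroup p ↥(pCore p G) := S.isPGroup'.to_le hTS
  obtain ⟨A, hAn, hAT, hA2, hA3, hA4⟩ := exists_critical (pCore p G) hTp
  haveI := hAn
  have h : SettingN p G A := ⟨hst, hC, hAn, hAT, hA2, hA3, hA4⟩
  have hAS : A ≤ (S : Subgroup G) := hAT.trans hTS
  have hinj : Function.Injective (S : Subgroup G).subtype := (S : Subgroup G).subtype_injective
  have hAmap : (A.subgroupOf (S : Subgroup G)).map (S : Subgroup G).subtype = A :=
    Subgroup.map_subgroupOf_eq_of_le hAS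
  have hTmap : ((pCore p G).subgroupOf (S : Subgroup G)).map (S : Subgroup G).subtype =
      pCore p G := Subgroup.map_subgroupOf_eq_of_le hTS
  have hZmap : ((A.subgroupOf (S : Subgroup G)) ⊓ Subgroup.centralizer
      ((A.subgroupOf (S : Subgroup G) : Subgroup ↥(S : Subgroup G)) :
        Set ↥(S : Subgroup G))).map (S : Subgroup G).subtype =
      A ⊓ Subgroup.centralizer (A : Set G) := by
    rw [map_inf_centralizer (S : Subgroup G).subtype hinj, hAmap]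
  have hA2' : A.subgroupOf (S : Subgroup G) ∈ classTwoSubgroups ↥(S : Subgroup G) := by
    show ⁅A.subgroupOf (S : Subgroup G), A.subgroupOf (S : Subgroup G)⁆ ≤
      Subgroup.centralizer ((A.subgroupOf (S : Subgroup G) : Subgroup ↥(S : Subgroup G)) :
        Set ↥(S : Subgroup G))
    rw [← map_le_centralizer_map_iff (S : Subgroup G).subtype hinj, Subgroup.map_commutator,
      hAmap]
    exact hA2
  have hA3' : ⁅(pCore p G).subgroupOf (S : Subgroup G), A.subgroupOf (S : Subgroup G)⁆ ≤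
      A.subgroupOf (S : Subgroup G) ⊓ Subgroup.centralizer
        ((A.subgroupOf (S : Subgroup G) : Subgroup ↥(S : Subgroup G)) :
          Set ↥(S : Subgroup G)) := by
    rw [← Subgroup.map_le_map_iff_of_injective hinj, Subgroup.map_commutator, hZmap, hTmap,
      hAmap]
    exact hA3
  have hpS : ∀ B : Subgroup ↥(S : Subgroup G), ∀ b ∈ B.map (S : Subgroup G).subtype,
      ∃ k : ℕ, b ^ p ^ k = 1 := by
    rintro B _ ⟨b, -, rfl⟩
    obtain ⟨k, hk⟩ := S.isPGroup' b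
    exact ⟨k, by rw [← map_pow, hk, map_one]⟩
  have hlow' : ∀ Q B : Subgroup ↥(S : Subgroup G), A.subgroupOf (S : Subgroup G) ≤ Q →
      B ∈ kLowerStarFamily Q → B ≤ (pCore p G).subgroupOf (S : Subgroup G) := by
    intro Q B hAQ hB
    have h1 : B.map (S : Subgroup G).subtype ∈
        kLowerStarFamily (Q.map (S : Subgroup G).subtype) :=
      (mem_lower_map_iff (S : Subgroup G).subtype hinj B Q).mpr hB
    have h2 : A ≤ Q.map (S : Subgroup G).subtype := by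
      rw [← hAmap]
      exact Subgroup.map_mono hAQ
    have h4 := lower_leN h h1 h2 (hpS B)
    intro b hb
    exact Subgroup.mem_subgroupOf.mpr (h4 ⟨b, hb, rfl⟩)
  have hup' : ∀ Q B : Subgroup ↥(S : Subgroup G), A.subgroupOf (S : Subgroup G) ≤ Q →
      B ∈ kUpperStarFamily Q → B ≤ (pCore p G).subgroupOf (S : Subgroup G) := by
    intro Q B hAQ hB
    have h1 : B.map (S : Subgroup G).subtype ∈
        kUpperStarFamily (Q.map (S : Subgroup G).subtype) :=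
      (mem_upper_map_iff (S : Subgroup G).subtype hinj B Q).mpr hB
    have h2 : A ≤ Q.map (S : Subgroup G).subtype := by
      rw [← hAmap]
      exact Subgroup.map_mono hAQ
    have h4 := upper_leN h h1 h2
    intro b hb
    exact Subgroup.mem_subgroupOf.mpr (h4 ⟨b, hb, rfl⟩)
  have hAl' : ∀ Q : Subgroup ↥(S : Subgroup G),
      A.subgroupOf (S : Subgroup G) ∈ kLowerStarFamily Q := by
    intro Q
    apply (mem_lower_map_iff (S : Subgroup G).subtype hinj _ Q).mp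
    rw [hAmap]
    exact A_mem_lower'N h _
  have hfam := families_le' (A.subgroupOf (S : Subgroup G))
    ((pCore p G).subgroupOf (S : Subgroup G)) hA2' hA3' hlow' hup' hAl'
  have hrange : ∀ B : Subgroup ↥(S : Subgroup G), B ≤ (pCore p G).subgroupOf (S : Subgroup G) →
      B ≤ (Subgroup.inclusion hTS).range := by
    intro B hB b hb
    exact ⟨⟨(b : G), Subgroup.mem_subgroupOf.mp (hB hb)⟩, Subtype.ext rfl⟩
  have hmk := map_kInf (Subgroup.inclusion hTS) (Subgroup.inclusion_injective hTS)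
    (fun n => hrange _ (hfam n).2.1)
    (hrange _ ((iInf_le _ 1).trans (hfam 0).2.2))
  have hL : (kInfLower ↥(S : Subgroup G)).map (S : Subgroup G).subtype =
      (kInfLower ↥(pCore p G)).map (pCore p G).subtype := by
    rw [← hmk.1, Subgroup.map_map]
    rfl
  have hU : (kInfUpper ↥(S : Subgroup G)).map (S : Subgroup G).subtype =
      (kInfUpper ↥(pCore p G)).map (pCore p G).subtype := by
    rw [← hmk.2, Subgroup.map_map]
    rfl
  constructor
  · rw [hL]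
    exact induced_normal kInfLower (isChar_kInfLower p) (pCore p G) hTp
  · rw [hU]
    exact induced_normal kInfUpper (isChar_kInfUpper p) (pCore p G) hTp

end Cfsg.Agent.Lib.Helper12.KInfQuot
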