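import Mathlib
import Cfsg.Prelude.Def_ConjugacyFunctors
import Cfsg.Prelude.Def_PLocal
import Cfsg.Prelude.Def_LocalEven
import Cfsg.Agent.Lib.Helper9.Cores
import Cfsg.Agent.Lib.Helper12.SylowBasic
import Cfsg.Agent.Lib.Helper12.KInf
import Cfsg.Agent.Lib.Helper12.KInfCubic
import Cfsg.Agent.Lib.Helper12.Critical
import Cfsg.Agent.Lib.Helper12.QuarticFilt
import Cfsg.Agent.Lib.Helper12.QStab
import Cfsg.Agent.Lib.Helper12.KInfStable
import Cfsg.Agent.Lib.Helper12.ChiefFilt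
import Cfsg.Agent.Lib.Helper12.SmallExp
import Cfsg.Agent.Lib.Helper12.KInfQuot

set_option autoImplicit false

/-! K-infinity and quadratic action on chief factors: if `C_G(O_p(G)) ≤ O_p(G)`, `A` is a normal
subgroup of critical type inside `O_p(G)`, and no element `g` of the Sylow `p`-subgroup `S`
outside `O_p(G)` with `[A, g, g, g] ≤ Z(A)`, `[Z(A), g, g] = 1` acts quadratically and
nontrivially on a chief factor of `G` inside `A`, then both K-infinity subgroups of `S` are normal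
in `G` (`kinf_normal_of_no_quad`).  The main tool is Clifford's theorem along a subnormal
chain. -/

namespace Cfsg.Agent.Lib.Helper12.KInfChief

open Cfsg Cfsg.Agent.Lib.Helper12.KInf Cfsg.Agent.Lib.Helper12.KInfCubic
  Cfsg.Agent.Lib.Helper12.Critical Cfsg.Agent.Lib.Helper12.QuarticFilt
  Cfsg.Agent.Lib.Helper12.SylowBasic Cfsg.Agent.Lib.Helper12.QStab
  Cfsg.Agent.Lib.Helper12.KInfStable Cfsg.Agent.Lib.Helper12.ChiefFilt
  Cfsg.Agent.Lib.Helper12.KInfQuot
open scoped commutatorElement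

universe u

/-- Every `L`-invariant subgroup between `V` and `U` has an `L`-invariant complement. -/
def Compl {G : Type*} [Group G] (L U V : Subgroup G) : Prop :=
  ∀ S : Subgroup G, V ≤ S → S ≤ U → DInv L S →
    ∃ S' : Subgroup G, V ≤ S' ∧ S' ≤ U ∧ DInv L S' ∧ S ⊓ S' = V ∧ S ⊔ S' = U

/-- Clifford: complete reducibility passes to a normal subgroup. -/
theorem clifford_step {G : Type*} [Group G] [Finite G] {U V L Y : Subgroup G} [hUn : U.Normal]
    [hVn : V.Normal] (hab : ⁅U, U⁆ ≤ V) (hVU : V ≤ U) (hYL : Y ≤ L) (hLY : DInv L Y)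
    (hL : Compl L U V) : Compl Y U V := by
  intro S hVS hSU hSY
  haveI : Nonempty {S' : Subgroup G // V ≤ S' ∧ S' ≤ U ∧ DInv Y S' ∧ S ⊓ S' = V} :=
    ⟨⟨V, le_rfl, hVU, dinv_of_normal Y V, inf_eq_right.mpr hVS⟩⟩
  obtain ⟨⟨S', hVS', hS'U, hS'Y, hSS'⟩, hmax⟩ := Finite.exists_max
    (fun S' : {S' : Subgroup G // V ≤ S' ∧ S' ≤ U ∧ DInv Y S' ∧ S ⊓ S' = V} => Nat.card ↥S'.1)
  refine ⟨S', hVS', hS'U, hS'Y, hSS', ?_⟩
  by_contra hne
  have hle : S ⊔ S' ≤ U := sup_le hSU hS'U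
  have hS₂Y : DInv Y (S ⊔ S') := dinv_sup hSY hS'Y
  -- the `L`-core of `S ⊔ S'`
  obtain ⟨Xs, hXs⟩ : ∃ Xs : Subgroup G, ∀ x, x ∈ Xs ↔ ∀ l ∈ L, l * x * l⁻¹ ∈ S ⊔ S' :=
    ⟨⨅ l : ↥L, (S ⊔ S').comap (MulAut.conj (l : G)).toMonoidHom, fun x => by
      rw [Subgroup.mem_iInf]
      constructor
      · intro h l hl
        exact h ⟨l, hl⟩
      · intro h l
        exact h l l.2⟩
  have hVXs : V ≤ Xs := fun v hv => (hXs v).mpr
    (fun l _ => (hVS.trans le_sup_left) (hVn.conj_mem v hv l))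
  have hXsle : Xs ≤ S ⊔ S' := by
    intro x hx
    have h1 := (hXs x).mp hx 1 L.one_mem
    rwa [one_mul, inv_one, mul_one] at h1
  have hXsL : DInv L Xs := by
    intro l hl x hx
    refine (hXs _).mpr (fun l' hl' => ?_)
    have h1 := (hXs x).mp hx (l' * l) (L.mul_mem hl' hl)
    have e : l' * (l * x * l⁻¹) * l'⁻¹ = l' * l * x * (l' * l)⁻¹ := by group
    rw [e]
    exact h1
  obtain ⟨R, hVR, hRU, hRL, hXR, hXRsup⟩ := hL Xs hVXs (hXsle.trans hle) hXsL
  have hRY : DInv Y R := fun y hy => hRL y (hYL hy)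
  have hVltR : V < R := by
    refine lt_of_le_of_ne hVR (fun h => hne (le_antisymm hle ?_))
    rw [← hXRsup, ← h, sup_eq_left.mpr hVXs]
    exact hXsle
  -- a `Y`-irreducible subgroup inside `R`
  haveI : Nonempty {I : Subgroup G // V < I ∧ I ≤ R ∧ DInv Y I} :=
    ⟨⟨R, hVltR, le_rfl, hRY⟩⟩
  obtain ⟨⟨I₀, hVI₀, hI₀R, hI₀Y⟩, hImin⟩ := Finite.exists_min
    (fun I : {I : Subgroup G // V < I ∧ I ≤ R ∧ DInv Y I} => Nat.card ↥I.1)
  have hI₀U : I₀ ≤ U := hI₀R.trans hRU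
  have hI₀irr : ∀ J : Subgroup G, V ≤ J → J ≤ I₀ → DInv Y J → J = V ∨ J = I₀ := by
    intro J hVJ hJI hJY
    by_cases h : J = V
    · exact Or.inl h
    · right
      have h1 := hImin ⟨J, lt_of_le_of_ne hVJ (Ne.symm h), hJI.trans hI₀R, hJY⟩
      exact Subgroup.eq_of_le_of_card_ge hJI h1
  -- some `L`-conjugate of `I₀` is not inside `S ⊔ S'`
  obtain ⟨g, hgL, i₀, hi₀, hgi₀⟩ : ∃ g ∈ L, ∃ i₀ ∈ I₀, g * i₀ * g⁻¹ ∉ S ⊔ S' := by
    by_contra hcon
    push Not at hcon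
    have h1 : I₀ ≤ Xs := fun i hi => (hXs i).mpr (fun l hl => hcon l hl i hi)
    have h2 : I₀ ≤ Xs ⊓ R := le_inf h1 hI₀R
    rw [hXR] at h2
    exact hVI₀.not_ge h2
  -- the conjugate `I = g I₀ g⁻¹`
  obtain ⟨I, hI⟩ : ∃ I : Subgroup G, ∀ x, x ∈ I ↔ g⁻¹ * x * g ∈ I₀ :=
    ⟨I₀.comap (MulAut.conj g⁻¹).toMonoidHom, fun x => by
      rw [Subgroup.mem_comap]
      show g⁻¹ * x * g⁻¹⁻¹ ∈ I₀ ↔ _
      rw [inv_inv]⟩
  have hVI : V ≤ I := fun v hv => (hI v).mpr (hVI₀.le (by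
    have h1 := hVn.conj_mem v hv g⁻¹
    rwa [inv_inv] at h1))
  have hIU : I ≤ U := by
    intro x hx
    have h1 := hUn.conj_mem _ (hI₀U ((hI x).mp hx)) g
    have e : g * (g⁻¹ * x * g) * g⁻¹ = x := by group
    rwa [e] at h1
  have hIY : DInv Y I := by
    intro y hy x hx
    rw [hI] at hx ⊢
    have h1 := hI₀Y (g⁻¹ * y * g) (by
      have h2 := hLY g⁻¹ (L.inv_mem hgL) y hy
      rwa [inv_inv] at h2) _ hx
    have e : g⁻¹ * (y * x * y⁻¹) * g = g⁻¹ * y * g * (g⁻¹ * x * g) * (g⁻¹ * y * g)⁻¹ := by group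
    rw [e]
    exact h1
  -- `I ⊓ (S ⊔ S') = V`
  have hIS₂ : ∀ x ∈ I, x ∈ S ⊔ S' → x ∈ V := by
    obtain ⟨J, hJ⟩ : ∃ J : Subgroup G, ∀ i, i ∈ J ↔ i ∈ I₀ ∧ g * i * g⁻¹ ∈ S ⊔ S' :=
      ⟨I₀ ⊓ (S ⊔ S').comap (MulAut.conj g).toMonoidHom, fun i => by
        rw [Subgroup.mem_inf, Subgroup.mem_comap]
        rfl⟩
    have hVJ : V ≤ J := fun v hv =>
      (hJ v).mpr ⟨hVI₀.le hv, (hVS.trans le_sup_left) (hVn.conj_mem v hv g)⟩
    have hJI : J ≤ I₀ := fun i hi => ((hJ i).mp hi).1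
    have hJY : DInv Y J := by
      intro y hy i hi
      rw [hJ] at hi ⊢
      refine ⟨hI₀Y y hy i hi.1, ?_⟩
      have h1 := hS₂Y (g * y * g⁻¹) (hLY g hgL y hy) _ hi.2
      have e : g * (y * i * y⁻¹) * g⁻¹ = g * y * g⁻¹ * (g * i * g⁻¹) * (g * y * g⁻¹)⁻¹ := by
        group
      rw [e]
      exact h1
    rcases hI₀irr J hVJ hJI hJY with h1 | h1
    · intro x hx hx2
      have h2 : g⁻¹ * x * g ∈ J := (hJ _).mpr ⟨(hI x).mp hx, by
        have e : g * (g⁻¹ * x * g) * g⁻¹ = x := by group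
        rw [e]
        exact hx2⟩
      rw [h1] at h2
      have h3 := hVn.conj_mem _ h2 g
      have e : g * (g⁻¹ * x * g) * g⁻¹ = x := by group
      rwa [e] at h3
    · exfalso
      have h2 : i₀ ∈ J := h1 ▸ hi₀
      exact hgi₀ ((hJ i₀).mp h2).2
  have hx₀I : g * i₀ * g⁻¹ ∈ I := by
    rw [hI]
    have e : g⁻¹ * (g * i₀ * g⁻¹) * g = i₀ := by group
    rw [e]
    exact hi₀
  -- enlarge `S'`
  have hS'' : S ⊓ (S' ⊔ I) = V := by
    apply le_antisymm
    · rintro x ⟨hxS, hx2⟩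
      obtain ⟨a, ha, b, hb, rfl⟩ := mem_sup_between hab hVI hS'U hIU hx2
      have hbS₂ : b ∈ S ⊔ S' := by
        have e : b = a⁻¹ * (a * b) := by group
        rw [e]
        exact Subgroup.mul_mem _ (Subgroup.mem_sup_right (S'.inv_mem ha))
          (Subgroup.mem_sup_left hxS)
      have hbV : b ∈ V := hIS₂ b hb hbS₂
      have habS' : a * b ∈ S' := S'.mul_mem ha (hVS' hbV)
      have h5 : a * b ∈ S ⊓ S' := ⟨hxS, habS'⟩
      rw [hSS'] at h5
      exact h5
    · exact le_inf hVS (hVS'.trans le_sup_left)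
  have h6 := hmax ⟨S' ⊔ I, hVS'.trans le_sup_left, sup_le hS'U hIU, dinv_sup hS'Y hIY, hS''⟩
  have h7 : S' = S' ⊔ I := Subgroup.eq_of_le_of_card_ge le_sup_left h6
  apply hgi₀
  apply Subgroup.mem_sup_right
  rw [h7]
  exact Subgroup.mem_sup_right hx₀I

/-- In a group which is a `p`-group modulo the normal subgroup `C`, proper subgroups containing
`C` are properly contained in their normalizers. -/
theorem normalizer_grow {p : ℕ} [Fact p.Prime] {G : Type*} [Group G] [Finite G]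
    (C H G₀ : Subgroup G) [hCn : C.Normal] (hCH : C ≤ H) (hHG : H ≤ G₀) (hne : H ≠ G₀)
    (hp : ∀ x ∈ G₀, ∃ k : ℕ, x ^ p ^ k ∈ C) :
    ∃ x ∈ G₀, x ∉ H ∧ x ∈ Subgroup.normalizer (H : Set G) := by
  haveI hCn' : (C.subgroupOf G₀).Normal := hCn.subgroupOf G₀
  obtain ⟨π, hπ⟩ : ∃ π : ↥G₀ →* ↥G₀ ⧸ C.subgroupOf G₀,
      π = QuotientGroup.mk' (C.subgroupOf G₀) := ⟨_, rfl⟩
  have hπ1 : ∀ x : ↥G₀, π x = 1 ↔ (x : G) ∈ C := by
    intro x
    rw [hπ, QuotientGroup.mk'_apply, QuotientGroup.eq_one_iff, Subgroup.mem_subgroupOf]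
  have hπs : Function.Surjective π := hπ ▸ QuotientGroup.mk'_surjective _
  have hQp : IsPGroup p (↥G₀ ⧸ C.subgroupOf G₀) := by
    intro q
    obtain ⟨x, rfl⟩ := hπs q
    obtain ⟨k, hk⟩ := hp (x : G) x.2
    refine ⟨k, ?_⟩
    rw [← map_pow, hπ1]
    simpa using hk
  haveI : Group.IsNilpotent (↥G₀ ⧸ C.subgroupOf G₀) := hQp.isNilpotent
  have hkey : ∀ x : ↥G₀, π x ∈ (H.subgroupOf G₀).map π → (x : G) ∈ H := by
    rintro x ⟨h, hh, hhx⟩
    have h1 : π (h⁻¹ * x) = 1 := by rw [map_mul, map_inv, hhx, inv_mul_cancel]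
    have h2 : ((h⁻¹ * x : ↥G₀) : G) ∈ C := (hπ1 _).mp h1
    have h3 : (x : G) = (h : G) * ((h⁻¹ * x : ↥G₀) : G) := by simp
    rw [h3]
    exact H.mul_mem (Subgroup.mem_subgroupOf.mp hh) (hCH h2)
  have hlt : (H.subgroupOf G₀).map π < ⊤ := by
    rw [lt_top_iff_ne_top]
    intro htop
    apply hne
    apply le_antisymm hHG
    intro x hx
    exact hkey ⟨x, hx⟩ (htop ▸ Subgroup.mem_top _)
  have hnc := normalizerCondition_of_isNilpotent (G := ↥G₀ ⧸ C.subgroupOf G₀) _ hlt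
  obtain ⟨q, hqN, hqH⟩ := SetLike.exists_of_lt hnc
  obtain ⟨x, rfl⟩ := hπs q
  have hconj : ∀ y : ↥G₀, π y ∈ Subgroup.normalizer
      (((H.subgroupOf G₀).map π : Subgroup (↥G₀ ⧸ C.subgroupOf G₀)) :
        Set (↥G₀ ⧸ C.subgroupOf G₀)) → ∀ h ∈ H, (y : G) * h * (y : G)⁻¹ ∈ H := by
    intro y hy h hh
    have h1 : π y * π ⟨h, hHG hh⟩ * (π y)⁻¹ ∈ (H.subgroupOf G₀).map π :=
      (Subgroup.mem_normalizer_iff.mp hy _).mp
        ⟨⟨h, hHG hh⟩, Subgroup.mem_subgroupOf.mpr hh, rfl⟩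
    rw [← map_inv, ← map_mul, ← map_mul] at h1
    exact hkey _ h1
  refine ⟨(x : G), x.2, fun hxH => hqH ⟨x, Subgroup.mem_subgroupOf.mpr hxH, rfl⟩, ?_⟩
  rw [Subgroup.mem_normalizer_iff]
  intro h
  constructor
  · exact hconj x hqN h
  · intro hh
    have h1 := hconj x⁻¹ (by rw [map_inv]; exact Subgroup.inv_mem _ hqN) _ hh
    have e : ((x⁻¹ : ↥G₀) : G) * ((x : G) * h * (x : G)⁻¹) * ((x⁻¹ : ↥G₀) : G)⁻¹ = h := by
      simp [mul_assoc]
    rwa [e] at h1

/-- A chief factor of `G` is completely reducible under every subgroup `H` with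
`C ≤ H ≤ G₀`, where `C` and `G₀` are normal in `G` and `G₀ / C` is a `p`-group. -/
theorem compl_descent {p : ℕ} [Fact p.Prime] {G : Type*} [Group G] [Finite G] {U V : Subgroup G}
    (hUV : IsChiefFactor U V) (hab : ⁅U, U⁆ ≤ V) (C G₀ : Subgroup G) [hCn : C.Normal]
    [hG₀n : G₀.Normal] (hp : ∀ x ∈ G₀, ∃ k : ℕ, x ^ p ^ k ∈ C) :
    ∀ H : Subgroup G, C ≤ H → H ≤ G₀ → Compl H U V := by
  haveI := hUV.2.1
  haveI := hUV.2.2.1
  have key : ∀ n : ℕ, ∀ H : Subgroup G, C ≤ H → H ≤ G₀ →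
      Nat.card ↥G₀ - Nat.card ↥H ≤ n → Compl H U V := by
    intro n
    induction n with
    | zero =>
      intro H hCH hHG hn
      have h0 := Subgroup.card_le_of_le hHG
      have h1 : H = G₀ := Subgroup.eq_of_le_of_card_ge hHG (by omega)
      rw [h1]
      exact fun S a b c => clifford_compl hUV hab G₀ S a b c
    | succ n ih =>
      intro H hCH hHG hn
      by_cases h1 : H = G₀
      · rw [h1]
        exact fun S a b c => clifford_compl hUV hab G₀ S a b c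
      · obtain ⟨x, hxG, hxH, hxN⟩ := normalizer_grow C H G₀ hCH hHG h1 hp
        obtain ⟨H₁, hH₁⟩ : ∃ H₁ : Subgroup G,
            H₁ = Subgroup.normalizer (H : Set G) ⊓ G₀ := ⟨_, rfl⟩
        have hHH₁ : H ≤ H₁ := hH₁ ▸ le_inf Subgroup.le_normalizer hHG
        have hH₁G : H₁ ≤ G₀ := hH₁ ▸ inf_le_right
        have hH₁N : H₁ ≤ Subgroup.normalizer (H : Set G) := hH₁ ▸ inf_le_left
        have hxH₁ : x ∈ H₁ := by
          rw [hH₁]
          exact ⟨hxN, hxG⟩
        have hcard : Nat.card ↥H < Nat.card ↥H₁ := by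
          by_contra hc
          push Not at hc
          have h2 : H = H₁ := Subgroup.eq_of_le_of_card_ge hHH₁ hc
          exact hxH (h2 ▸ hxH₁)
        have hcard2 : Nat.card ↥H₁ ≤ Nat.card ↥G₀ := Subgroup.card_le_of_le hH₁G
        have h2 := ih H₁ (hCH.trans hHH₁) hH₁G (by omega)
        have hDI : DInv H₁ H := fun l hl h hh => conj_mem_of_le_normalizer hH₁N hl hh
        exact clifford_step hab hUV.1.le hHH₁ hDI h2
  intro H hCH hHG
  exact key _ H hCH hHG le_rfl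

/-- Quadratic action on an abelian section is additive. -/
theorem quad_sup {G : Type*} [Group G] (U V D X₁ X₂ : Subgroup G) [hUn : U.Normal]
    [hVn : V.Normal] (hab : ⁅U, U⁆ ≤ V) (hVU : V ≤ U) (hX₁U : X₁ ≤ U) (hX₂U : X₂ ≤ U)
    (h1 : ⁅⁅X₁, D⁆, D⁆ ≤ V) (h2 : ⁅⁅X₂, D⁆, D⁆ ≤ V) (hsup : U ≤ X₁ ⊔ X₂ ⊔ V) :
    ⁅⁅U, D⁆, D⁆ ≤ V := by
  obtain ⟨P, hP⟩ := exists_commSub U (fun _ : Unit => D) (fun _ => V)
    (fun _ t _ r hr => hVn.conj_mem r hr t)
  have hVP : V ≤ P := by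
    intro v hv
    refine (hP v).mpr ⟨hVU hv, fun _ d _ => ?_⟩
    have e : ⁅d, v⁆ = (d * v * d⁻¹) * v⁻¹ := by simp only [commutatorElement_def]
    rw [e]
    exact V.mul_mem (hVn.conj_mem v hv d) (V.inv_mem hv)
  have hPU : P ≤ U := fun t ht => ((hP t).mp ht).1
  obtain ⟨F, hF⟩ := exists_commSub U (fun _ : Unit => D) (fun _ => P) (fun _ t ht r hr => by
    have e : t * r * t⁻¹ = ⁅t, r⁆ * r := by simp only [commutatorElement_def]; group
    rw [e]
    exact P.mul_mem (hVP (hab (Subgroup.commutator_mem_commutator ht (hPU hr)))) hr)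
  have hXF : ∀ X : Subgroup G, X ≤ U → ⁅⁅X, D⁆, D⁆ ≤ V → X ≤ F := by
    intro X hXU hX x hx
    refine (hF x).mpr ⟨hXU hx, fun _ d hd => ?_⟩
    have hdx : ⁅d, x⁆ ∈ ⁅X, D⁆ := by
      rw [← commutatorElement_inv]
      exact Subgroup.inv_mem _ (Subgroup.commutator_mem_commutator hx hd)
    refine (hP _).mpr ⟨?_, fun _ d' hd' => ?_⟩
    · have e : ⁅d, x⁆ = (d * x * d⁻¹) * x⁻¹ := by simp only [commutatorElement_def]
      rw [e]
      exact U.mul_mem (hUn.conj_mem x (hXU hx) d) (U.inv_mem (hXU hx))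
    · rw [← commutatorElement_inv]
      exact V.inv_mem (hX (Subgroup.commutator_mem_commutator hdx hd'))
  have hVF : V ≤ F := by
    intro v hv
    refine (hF v).mpr ⟨hVU hv, fun _ d _ => hVP ?_⟩
    have e : ⁅d, v⁆ = (d * v * d⁻¹) * v⁻¹ := by simp only [commutatorElement_def]
    rw [e]
    exact V.mul_mem (hVn.conj_mem v hv d) (V.inv_mem hv)
  have hUF : U ≤ F := hsup.trans (sup_le (sup_le (hXF X₁ hX₁U h1) (hXF X₂ hX₂U h2)) hVF)
  have hUD : ⁅U, D⁆ ≤ P := by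
    rw [Subgroup.commutator_le]
    intro u hu d hd
    rw [← commutatorElement_inv]
    exact P.inv_mem (((hF u).mp (hUF hu)).2 () d hd)
  refine (Subgroup.commutator_mono hUD le_rfl).trans ?_
  rw [Subgroup.commutator_le]
  intro t ht d hd
  rw [← commutatorElement_inv]
  exact V.inv_mem (((hP t).mp ht).2 () d hd)

/-- If the elements of `K` of order prime to `p` lie in the normal subgroup `C`, then `C ⊔ K`
is a `p`-group modulo `C`. -/
theorem ppow_sup {p : ℕ} [Fact p.Prime] {G : Type*} [Group G] [Finite G] (C K : Subgroup G)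
    [hCn : C.Normal] (hK : ∀ y ∈ K, (orderOf y).Coprime p → y ∈ C) :
    ∀ x ∈ C ⊔ K, ∃ k : ℕ, x ^ p ^ k ∈ C := by
  have hp : p.Prime := Fact.out
  intro x hx
  obtain ⟨c, hc, k, hk, rfl⟩ := Subgroup.mem_sup_of_normal_left.mp hx
  obtain ⟨e, n', hn', he⟩ := Nat.exists_eq_pow_mul_and_not_dvd (orderOf_pos k).ne' p hp.ne_one
  have h0 : (k ^ p ^ e) ^ n' = 1 := by
    rw [← pow_mul, ← he, pow_orderOf_eq_one]
  have h1 : k ^ p ^ e ∈ C := hK _ (K.pow_mem hk _)
    (Nat.Coprime.coprime_dvd_left (orderOf_dvd_of_pow_eq_one h0)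
      ((Nat.Prime.coprime_iff_not_dvd hp).mpr hn').symm)
  refine ⟨e, ?_⟩
  have h2 : (((c * k) ^ p ^ e : G) : G ⧸ C) = 1 := by
    rw [QuotientGroup.mk_pow, QuotientGroup.mk_mul, (QuotientGroup.eq_one_iff c).mpr hc, one_mul,
      ← QuotientGroup.mk_pow]
    exact (QuotientGroup.eq_one_iff _).mpr h1
  exact (QuotientGroup.eq_one_iff _).mp h2

/-! ### the setting -/

/-- A chief series of `G` from `A` down to `1` passing through `Z(A)`. -/
structure Ser {G : Type*} [Group G] (A : Subgroup G) (N : ℕ → Subgroup G) : Prop where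
  h0 : N 0 = A
  hn : ∀ m, (N m).Normal
  hanti : ∀ m, N (m + 1) ≤ N m
  hZ : ∀ m, A ⊓ Subgroup.centralizer (A : Set G) ≤ N (m + 1) ∨
    N m ≤ A ⊓ Subgroup.centralizer (A : Set G)
  hch : ∀ m, N m = ⊥ ∨ IsChiefFactor (N m) (N (m + 1))
  hc : ∃ c, N c = ⊥

theorem Ser.le {G : Type*} [Group G] {A : Subgroup G} {N : ℕ → Subgroup G} (s : Ser A N)
    (m : ℕ) : N m ≤ A := s.h0 ▸ N_antitone N s.hanti (Nat.zero_le m)

/-- `C_G(O_p(G)) ≤ O_p(G)`, `A` is a normal subgroup of critical type inside `O_p(G)`, and every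
element of `S` which is cubic on `A`, quadratic on `Z(A)` and quadratic and nontrivial on some
chief factor of `G` inside `A` lies in `O_p(G)`. -/
structure SettingC (p : ℕ) (G : Type u) [Group G] (S A : Subgroup G) : Prop where
  hC : Subgroup.centralizer ((pCore p G : Subgroup G) : Set G) ≤ pCore p G
  hAn : A.Normal
  hAT : A ≤ pCore p G
  hA2 : ⁅A, A⁆ ≤ Subgroup.centralizer (A : Set G)
  hA3 : ⁅pCore p G, A⁆ ≤ A ⊓ Subgroup.centralizer (A : Set G)
  hA4 : pCore p G ⊓ Subgroup.centralizer (A : Set G) ≤ A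
  hno : ∀ g ∈ S,
    iterCommutator A (Subgroup.zpowers g) 3 ≤ A ⊓ Subgroup.centralizer (A : Set G) →
    ⁅⁅A ⊓ Subgroup.centralizer (A : Set G), Subgroup.zpowers g⁆, Subgroup.zpowers g⁆ = ⊥ →
    (∃ U V : Subgroup G, IsChiefFactor U V ∧ U ≤ A ∧
      ⁅⁅U, Subgroup.zpowers g⁆, Subgroup.zpowers g⁆ ≤ V ∧ ¬ ⁅U, Subgroup.zpowers g⁆ ≤ V) →
    g ∈ pCore p G

section coreC

variable {p : ℕ} [Fact p.Prime] {G : Type u} [Group G] [Finite G]

variable {S A : Subgroup G} (h : SettingC p G S A) {N : ℕ → Subgroup G} (s : Ser A N)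

include h

theorem pel_of_centC (x : G) (hx : x ∈ Subgroup.centralizer (A : Set G)) :
    ∃ k : ℕ, x ^ p ^ k = 1 := by
  haveI := h.hAn
  haveI hTn : (pCore p G).Normal := pCore_normal' p
  have hNp : IsPGroup p ↥(pCore p G ⊓ Subgroup.centralizer (A : Set G)) :=
    (Cfsg.Agent.Lib.Helper9.pCore_isPGroup p G).to_le inf_le_left
  obtain ⟨k, hk⟩ := pc_stab (pCore p G) (pCore p G ⊓ Subgroup.centralizer (A : Set G)) hNp x
    (fun n t ht => hTn.conj_mem t ht _)
    ⟨0, fun y hy => by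
      rw [pow_zero, pow_one, commutatorElement_eq_one_iff_mul_comm]
      exact (Subgroup.mem_centralizer_iff.mp hx) y (h.hA4 hy)⟩
    ⟨0, fun t ht => by
      rw [pow_zero, pow_one]
      constructor
      · have e : ⁅t, x⁆ = t * (x * t⁻¹ * x⁻¹) := by simp only [commutatorElement_def]; group
        rw [e]
        exact (pCore p G).mul_mem ht (hTn.conj_mem _ ((pCore p G).inv_mem ht) x)
      · have e : ⁅t, x⁆ = (t * x * t⁻¹) * x⁻¹ := by simp only [commutatorElement_def]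
        rw [e]
        exact Subgroup.mul_mem _ (Subgroup.Normal.conj_mem inferInstance x hx t)
          (Subgroup.inv_mem _ hx)⟩
  have h1 : x ^ p ^ k ∈ pCore p G := h.hC (Subgroup.mem_centralizer_iff.mpr
    (fun t ht => commutatorElement_eq_one_iff_mul_comm.mp (hk t ht)))
  obtain ⟨k', hk'⟩ := ppow_T (x ^ p ^ k) h1
  exact ⟨k + k', by rw [pow_add, pow_mul]; exact hk'⟩

include s

/-- The stabilizer of the chief series lies in `O_p(G)`. -/
theorem stab_le_core (x : G) (hx : ∀ m, ∀ u ∈ N m, ⁅u, x⁆ ∈ N (m + 1)) : x ∈ pCore p G := by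
  haveI hAn := h.hAn
  obtain ⟨K, hK⟩ := exists_commSub (⊤ : Subgroup G) (fun m => N m) (fun m => N (m + 1))
    (fun m t _ r hr => (s.hn (m + 1)).conj_mem r hr t)
  have hKn : (⊤ : Subgroup G) ≤ Subgroup.normalizer (K : Set G) := by
    apply le_normalizer_of_conj_mem
    intro g _ t ht
    refine (hK _).mpr ⟨Subgroup.mem_top _, fun m a ha => ?_⟩
    have e : ⁅a, g * t * g⁻¹⁆ = g * ⁅g⁻¹ * a * g⁻¹⁻¹, t⁆ * g⁻¹ := by
      simp only [commutatorElement_def]; group
    rw [e]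
    exact (s.hn (m + 1)).conj_mem _ (((hK t).mp ht).2 m _ ((s.hn m).conj_mem a ha g⁻¹)) g
  have hNp : ∀ m, IsPGroup p ↥(N m) := fun m =>
    (Cfsg.Agent.Lib.Helper9.pCore_isPGroup p G).to_le ((s.le m).trans h.hAT)
  have hKp : ∀ y ∈ K, (orderOf y).Coprime p → y = 1 := by
    intro y hy hcop
    have h1 := cent_of_chain N s.hn hNp s.hc y hcop (fun m u hu => ((hK y).mp hy).2 m u hu)
    rw [s.h0] at h1
    obtain ⟨k, hk⟩ := pel_of_centC h y (Subgroup.mem_centralizer_iff.mpr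
      (fun u hu => commutatorElement_eq_one_iff_mul_comm.mp (h1 u hu)))
    have h2 : orderOf y ∣ p ^ k := orderOf_dvd_of_pow_eq_one hk
    exact orderOf_eq_one_iff.mp
      (Nat.eq_one_of_dvd_coprimes (Nat.Coprime.pow_right k hcop) dvd_rfl h2)
  exact hsub ⊤ K le_top hKn (ppow_of_no_pprime K hKp) ((hK x).mpr ⟨Subgroup.mem_top _, hx⟩)

/-- An element of `S`, cubic on `A` and quadratic on `Z(A)`, which is quadratic on every factor
of the chief series, lies in `O_p(G)`. -/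
theorem mem_of_series_quad (g : G) (hgS : g ∈ S)
    (hcub : iterCommutator A (Subgroup.zpowers g) 3 ≤ A ⊓ Subgroup.centralizer (A : Set G))
    (hqZ : ⁅⁅A ⊓ Subgroup.centralizer (A : Set G), Subgroup.zpowers g⁆, Subgroup.zpowers g⁆ = ⊥)
    (hq : ∀ m, ⁅⁅N m, Subgroup.zpowers g⁆, Subgroup.zpowers g⁆ ≤ N (m + 1)) :
    g ∈ pCore p G := by
  by_cases hall : ∀ m, ⁅N m, Subgroup.zpowers g⁆ ≤ N (m + 1)
  · exact stab_le_core h s g (fun m u hu =>
      hall m (Subgroup.commutator_mem_commutator hu (Subgroup.mem_zpowers g)))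
  · push Not at hall
    obtain ⟨m, hm⟩ := hall
    rcases s.hch m with h1 | h1
    · exfalso
      apply hm
      rw [h1, Subgroup.commutator_bot_left]
      exact bot_le
    · exact h.hno g hgS hcub hqZ ⟨N m, N (m + 1), h1, s.le m, hq m, hm⟩

theorem mem_of_quadC (g : G) (hgS : g ∈ S)
    (hqZ : ⁅⁅A ⊓ Subgroup.centralizer (A : Set G), Subgroup.zpowers g⁆, Subgroup.zpowers g⁆ = ⊥)
    (hqA : ⁅⁅A, Subgroup.zpowers g⁆, Subgroup.zpowers g⁆ ≤
      A ⊓ Subgroup.centralizer (A : Set G)) : g ∈ pCore p G := by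
  haveI := h.hAn
  have hZn : (A ⊓ Subgroup.centralizer (A : Set G)).Normal := inferInstance
  refine mem_of_series_quad h s g hgS ?_ hqZ ?_
  · show ⁅⁅⁅A, Subgroup.zpowers g⁆, Subgroup.zpowers g⁆, Subgroup.zpowers g⁆ ≤ _
    exact (Subgroup.commutator_mono hqA le_rfl).trans (Subgroup.commutator_le_left _ _)
  · intro m
    rcases s.hZ m with h1 | h1
    · exact ((Subgroup.commutator_mono (Subgroup.commutator_mono (s.le m) le_rfl)
        le_rfl).trans hqA).trans h1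
    · calc ⁅⁅N m, Subgroup.zpowers g⁆, Subgroup.zpowers g⁆
          ≤ ⁅⁅A ⊓ Subgroup.centralizer (A : Set G), Subgroup.zpowers g⁆, Subgroup.zpowers g⁆ :=
            Subgroup.commutator_mono (Subgroup.commutator_mono h1 le_rfl) le_rfl
        _ = ⊥ := hqZ
        _ ≤ _ := bot_le

theorem upper_leC {Q B : Subgroup G} (hB : B ∈ kUpperStarFamily Q) (hAQ : A ≤ Q)
    (hBS : B ≤ S) : B ≤ pCore p G := by
  intro b hb
  have hq := quad_of_comm_le B A ((Subgroup.commutator_mono le_rfl hAQ).trans hB.2) b hb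
  refine mem_of_quadC h s b (hBS hb) ?_ ?_
  · rw [eq_bot_iff, ← hq]
    exact Subgroup.commutator_mono (Subgroup.commutator_mono inf_le_left le_rfl) le_rfl
  · rw [hq]
    exact bot_le

theorem A_mem_lowerC (Q : Subgroup G) (hQS : Q ≤ S) : A ∈ kLowerStarFamily Q := by
  haveI := h.hAn
  refine ⟨h.hA2, ?_, ?_⟩
  · rw [Subgroup.normalizer_eq_top]
    exact le_top
  · intro A' hA' hA'Q hAn' hc1 hc2
    have hA'T : A' ≤ pCore p G := by
      intro a ha
      have haA : Subgroup.zpowers a ≤ A' := Subgroup.zpowers_le.mpr ha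
      refine mem_of_quadC h s a (hQS (hA'Q ha)) ?_ ?_
      · rw [eq_bot_iff, ← hc2]
        exact Subgroup.commutator_mono (Subgroup.commutator_mono le_rfl haA) haA
      · have h1 : ⁅A, A'⁆ ≤ A' := comm_le_of_le_normalizer hAn'
        have h2 : ⁅⁅A, Subgroup.zpowers a⁆, Subgroup.zpowers a⁆ ≤ ⁅A', A'⁆ :=
          Subgroup.commutator_mono ((Subgroup.commutator_mono le_rfl haA).trans h1) haA
        have h3 : ⁅⁅A, Subgroup.zpowers a⁆, Subgroup.zpowers a⁆ ≤ A :=
          (Subgroup.commutator_mono (Subgroup.commutator_le_left A _) le_rfl).trans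
            (Subgroup.commutator_le_left A _)
        have h4 : ⁅A', A'⁆ ≤ Subgroup.centralizer (A : Set G) :=
          Subgroup.le_centralizer_iff.mp (Subgroup.commutator_eq_bot_iff_le_centralizer.mp hc1)
        exact le_inf h3 (h2.trans h4)
    calc ⁅A, A'⁆ ≤ ⁅A, pCore p G⁆ := Subgroup.commutator_mono le_rfl hA'T
      _ = ⁅pCore p G, A⁆ := Subgroup.commutator_comm _ _
      _ ≤ _ := h.hA3

theorem lower_leC {Q B : Subgroup G} (hB : B ∈ kLowerStarFamily Q) (hAQ : A ≤ Q)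
    (hBS : B ≤ S) : B ≤ pCore p G := by
  haveI hAn := h.hAn
  haveI hTn : (pCore p G).Normal := pCore_normal' p
  have hp : p.Prime := Fact.out
  have hZn : (A ⊓ Subgroup.centralizer (A : Set G)).Normal := inferInstance
  have hB1 : ⁅B, B⁆ ≤ Subgroup.centralizer (B : Set G) := hB.1
  have hAZB : A ≤ Subgroup.normalizer
      ((B ⊓ Subgroup.centralizer (B : Set G) : Subgroup G) : Set G) :=
    le_normalizer_center (hAQ.trans hB.2.1)
  have hZBT : B ⊓ Subgroup.centralizer (B : Set G) ≤ pCore p G := by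
    intro z hz
    have hzZ : Subgroup.zpowers z ≤ B ⊓ Subgroup.centralizer (B : Set G) :=
      Subgroup.zpowers_le.mpr hz
    have hq : ⁅⁅A, Subgroup.zpowers z⁆, Subgroup.zpowers z⁆ = ⊥ := by
      rw [eq_bot_iff, ← center_abelian B]
      exact Subgroup.commutator_mono
        ((Subgroup.commutator_mono le_rfl hzZ).trans (comm_le_of_le_normalizer hAZB)) hzZ
    refine mem_of_quadC h s z (hBS hz.1) ?_ ?_
    · rw [eq_bot_iff, ← hq]
      exact Subgroup.commutator_mono (Subgroup.commutator_mono inf_le_left le_rfl) le_rfl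
    · rw [hq]
      exact bot_le
  have hA'A : ⁅A, A⁆ ≤ A := Subgroup.commutator_le_left A A
  have hTA : ⁅pCore p G, A⁆ ≤ Subgroup.centralizer (A : Set G) := h.hA3.trans inf_le_right
  have hTC : pCore p G ≤ Subgroup.centralizer ((⁅A, A⁆ : Subgroup G) : Set G) := by
    have e1 : ⁅⁅A, pCore p G⁆, A⁆ = ⊥ := by
      rw [Subgroup.commutator_eq_bot_iff_le_centralizer, Subgroup.commutator_comm]
      exact hTA
    have e2 : ⁅⁅pCore p G, A⁆, A⁆ = ⊥ := Subgroup.commutator_eq_bot_iff_le_centralizer.mpr hTA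
    have e3 : ⁅⁅A, A⁆, pCore p G⁆ = ⊥ := Subgroup.commutator_commutator_eq_bot_of_rotate e1 e2
    exact Subgroup.le_centralizer_iff.mp (Subgroup.commutator_eq_bot_iff_le_centralizer.mp e3)
  have hTnil : ∃ c : ℕ, (pCore p G).lowerCentralSeries c = ⊥ :=
    (Subgroup.isNilpotent_iff_lowerCentralSeries (pCore p G)).mp
      (Cfsg.Agent.Lib.Helper9.pCore_isPGroup p G).isNilpotent
  have hab : ∀ m, IsChiefFactor (N m) (N (m + 1)) → ⁅N m, N m⁆ ≤ N (m + 1) := fun m hch =>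
    (Subgroup.commutator_mono le_rfl ((s.le m).trans h.hAT)).trans
      (chief_central hch (pCore p G) hTnil ((s.le m).trans h.hAT))
  have hgood : ∀ b ∈ B, iterCommutator A (Subgroup.zpowers b) 3 = ⊥ ∧
      ⁅⁅A ⊓ Subgroup.centralizer (A : Set G), Subgroup.zpowers b⁆, Subgroup.zpowers b⁆ = ⊥ :=
    fun b hb => lower_member_good hB A hAQ b hb
  -- `B` centralizes the chief factors inside `Z(A)`
  have hBZ : ∀ b ∈ B, ∀ m, N m ≤ A ⊓ Subgroup.centralizer (A : Set G) →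
      ⁅N m, Subgroup.zpowers b⁆ ≤ N (m + 1) := by
    intro b hb m hm
    by_contra hcon
    have hch : IsChiefFactor (N m) (N (m + 1)) := by
      rcases s.hch m with h1 | h1
      · exfalso
        apply hcon
        rw [h1, Subgroup.commutator_bot_left]
        exact bot_le
      · exact h1
    have hq : ⁅⁅N m, Subgroup.zpowers b⁆, Subgroup.zpowers b⁆ ≤ N (m + 1) := by
      calc ⁅⁅N m, Subgroup.zpowers b⁆, Subgroup.zpowers b⁆
          ≤ ⁅⁅A ⊓ Subgroup.centralizer (A : Set G), Subgroup.zpowers b⁆, Subgroup.zpowers b⁆ :=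
            Subgroup.commutator_mono (Subgroup.commutator_mono hm le_rfl) le_rfl
        _ = ⊥ := (hgood b hb).2
        _ ≤ _ := bot_le
    have hbT : b ∈ pCore p G := h.hno b (hBS hb)
      (by rw [(hgood b hb).1]; exact bot_le) (hgood b hb).2
      ⟨N m, N (m + 1), hch, s.le m, hq, hcon⟩
    exact hcon ((Subgroup.commutator_mono le_rfl (Subgroup.zpowers_le.mpr hbT)).trans
      (chief_central hch (pCore p G) hTnil ((s.le m).trans h.hAT)))
  -- the stabilizer of the chief factors inside `Z(A)`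
  obtain ⟨KZ, hKZ⟩ := exists_commSub (⊤ : Subgroup G)
    (fun m => N m ⊓ (A ⊓ Subgroup.centralizer (A : Set G))) (fun m => N (m + 1))
    (fun m t _ r hr => (s.hn (m + 1)).conj_mem r hr t)
  haveI hKZn : KZ.Normal := by
    refine ⟨fun t ht g => ?_⟩
    refine (hKZ _).mpr ⟨Subgroup.mem_top _, fun m a ha => ?_⟩
    have e : ⁅a, g * t * g⁻¹⁆ = g * ⁅g⁻¹ * a * g⁻¹⁻¹, t⁆ * g⁻¹ := by
      simp only [commutatorElement_def]; group
    rw [e]
    exact (s.hn (m + 1)).conj_mem _ (((hKZ t).mp ht).2 m _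
      ⟨(s.hn m).conj_mem a ha.1 g⁻¹, hZn.conj_mem a ha.2 g⁻¹⟩) g
  have hBK : B ≤ KZ := by
    intro b hb
    refine (hKZ b).mpr ⟨Subgroup.mem_top _, fun m a ha => ?_⟩
    rcases s.hZ m with h1 | h1
    · apply h1
      have e : ⁅a, b⁆ = a * (b * a⁻¹ * b⁻¹) := by simp only [commutatorElement_def]; group
      rw [e]
      exact Subgroup.mul_mem _ ha.2 (hZn.conj_mem _ (Subgroup.inv_mem _ ha.2) b)
    · exact hBZ b hb m h1 (Subgroup.commutator_mem_commutator ha.1 (Subgroup.mem_zpowers b))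
  have hKZC : ∀ y ∈ KZ, (orderOf y).Coprime p →
      y ∈ Subgroup.centralizer ((⁅A, A⁆ : Subgroup G) : Set G) := by
    intro y hy hcop
    have h1 := cent_of_chain (fun m => N m ⊓ (A ⊓ Subgroup.centralizer (A : Set G)))
      (fun m => by haveI := s.hn m; exact inferInstance)
      (fun m => (Cfsg.Agent.Lib.Helper9.pCore_isPGroup p G).to_le
        (inf_le_left.trans ((s.le m).trans h.hAT)))
      (by obtain ⟨c, hc⟩ := s.hc; exact ⟨c, by rw [hc, bot_inf_eq]⟩)
      y hcop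
      (fun m u hu => ⟨((hKZ y).mp hy).2 m u hu, by
        have e : ⁅u, y⁆ = u * (y * u⁻¹ * y⁻¹) := by simp only [commutatorElement_def]; group
        rw [e]
        exact Subgroup.mul_mem _ hu.2 (hZn.conj_mem _ (Subgroup.inv_mem _ hu.2) y)⟩)
    rw [Subgroup.mem_centralizer_iff]
    intro w hw
    exact commutatorElement_eq_one_iff_mul_comm.mp
      (h1 w ⟨by rw [s.h0]; exact hA'A hw, hA'A hw, h.hA2 hw⟩)
  obtain ⟨G₀, hG₀⟩ : ∃ G₀ : Subgroup G,
      G₀ = Subgroup.centralizer ((⁅A, A⁆ : Subgroup G) : Set G) ⊔ KZ := ⟨_, rfl⟩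
  haveI hG₀n : G₀.Normal := by
    rw [hG₀]
    exact inferInstance
  have hG₀p : ∀ x ∈ G₀, ∃ k : ℕ,
      x ^ p ^ k ∈ Subgroup.centralizer ((⁅A, A⁆ : Subgroup G) : Set G) := by
    rw [hG₀]
    exact ppow_sup _ KZ hKZC
  intro b hb
  have hbB : Subgroup.zpowers b ≤ B := Subgroup.zpowers_le.mpr hb
  obtain ⟨A₁, hA₁⟩ := exists_commSub A (fun _ : Unit => A)
    (fun _ => ⁅A, A⁆ ⊓ Subgroup.centralizer (B : Set G))
    (fun _ t ht y hy => by
      have h1 := (Subgroup.mem_centralizer_iff.mp (h.hA2 hy.1)) t ht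
      have e : t * y * t⁻¹ = y := by rw [h1, mul_inv_cancel_right]
      rw [e]
      exact hy)
  have hA₁A : A₁ ≤ A := fun t ht => ((hA₁ t).mp ht).1
  have hconjA₁ : ∀ x : G,
      (∀ y ∈ ⁅A, A⁆ ⊓ Subgroup.centralizer (B : Set G), x * y = y * x) →
      ∀ t ∈ A₁, x * t * x⁻¹ ∈ A₁ := by
    intro x hx t ht
    obtain ⟨ht1, ht2⟩ := (hA₁ t).mp ht
    refine (hA₁ _).mpr ⟨hAn.conj_mem t ht1 x, fun _ a ha => ?_⟩
    have h1 := ht2 () (x⁻¹ * a * x⁻¹⁻¹) (hAn.conj_mem a ha x⁻¹)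
    have e : ⁅a, x * t * x⁻¹⁆ = x * ⁅x⁻¹ * a * x⁻¹⁻¹, t⁆ * x⁻¹ := by
      simp only [commutatorElement_def]; group
    rw [e, hx _ h1, mul_inv_cancel_right]
    exact h1
  obtain ⟨H, hH⟩ : ∃ H : Subgroup G,
      H = Subgroup.centralizer ((⁅A, A⁆ : Subgroup G) : Set G) ⊔ B := ⟨_, rfl⟩
  have hCH : Subgroup.centralizer ((⁅A, A⁆ : Subgroup G) : Set G) ≤ H := hH ▸ le_sup_left
  have hBH : B ≤ H := hH ▸ le_sup_right
  have hHG₀ : H ≤ G₀ := by
    rw [hH, hG₀]
    exact sup_le_sup le_rfl hBK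
  have hHA₁ : H ≤ Subgroup.normalizer (A₁ : Set G) := by
    rw [hH]
    apply sup_le
    · apply le_normalizer_of_conj_mem
      intro c hc t ht
      exact hconjA₁ c (fun y hy => ((Subgroup.mem_centralizer_iff.mp hc) y hy.1).symm) t ht
    · apply le_normalizer_of_conj_mem
      intro c hc t ht
      exact hconjA₁ c (fun y hy => (Subgroup.mem_centralizer_iff.mp hy.2) c hc) t ht
  have hCAA₁ : Subgroup.centralizer (A : Set G) ≤ Subgroup.centralizer (A₁ : Set G) :=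
    Subgroup.centralizer_le (SetLike.coe_subset_coe.mpr hA₁A)
  have hA₁2 : A₁ ∈ classTwoSubgroups G := by
    show ⁅A₁, A₁⁆ ≤ Subgroup.centralizer (A₁ : Set G)
    exact (Subgroup.commutator_mono hA₁A hA₁A).trans (h.hA2.trans hCAA₁)
  have hcomm1 : ⁅B, ⁅A₁, A₁⁆⁆ = ⊥ := by
    rw [Subgroup.commutator_eq_bot_iff_le_centralizer, Subgroup.le_centralizer_iff,
      Subgroup.commutator_le]
    intro a ha t ht
    exact (((hA₁ t).mp ht).2 () a (hA₁A ha)).2
  have hcomm2 : ⁅⁅B ⊓ Subgroup.centralizer (B : Set G), A₁⁆, A₁⁆ = ⊥ := by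
    rw [Subgroup.commutator_eq_bot_iff_le_centralizer]
    exact (Subgroup.commutator_mono hZBT hA₁A).trans (hTA.trans hCAA₁)
  have hlow := hB.2.2 A₁ hA₁2 (hA₁A.trans hAQ) (hBH.trans hHA₁) hcomm1 hcomm2
  have hq2 : ⁅⁅A₁, Subgroup.zpowers b⁆, Subgroup.zpowers b⁆ = ⊥ := quad_of_comm_le B A₁ hlow b hb
  have hAB : ⁅A, B⁆ ≤ B := comm_le_of_le_normalizer (hAQ.trans hB.2.1)
  have hBB : ⁅B, B⁆ ≤ B := comm_le_of_le_normalizer Subgroup.le_normalizer
  have hq3 : ⁅⁅A, Subgroup.zpowers b⁆, Subgroup.zpowers b⁆ ≤ A₁ := by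
    have h1 : ⁅⁅A, Subgroup.zpowers b⁆, Subgroup.zpowers b⁆ ≤ ⁅⁅A, B⁆, B⁆ :=
      Subgroup.commutator_mono (Subgroup.commutator_mono le_rfl hbB) hbB
    have h2 : ⁅⁅A, B⁆, B⁆ ≤ A :=
      (Subgroup.commutator_mono (Subgroup.commutator_le_left A B) le_rfl).trans
        (Subgroup.commutator_le_left A B)
    have h3 : ⁅⁅A, B⁆, B⁆ ≤ B ⊓ Subgroup.centralizer (B : Set G) :=
      (Subgroup.commutator_mono hAB le_rfl).trans (le_inf hBB hB1)
    intro w hw
    have hwA : w ∈ A := h2 (h1 hw)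
    have hwZ : w ∈ B ⊓ Subgroup.centralizer (B : Set G) := h3 (h1 hw)
    refine (hA₁ w).mpr ⟨hwA, fun _ a ha => ⟨Subgroup.commutator_mem_commutator ha hwA, ?_⟩⟩
    have h4 : a * w * a⁻¹ ∈ B ⊓ Subgroup.centralizer (B : Set G) :=
      conj_mem_of_le_normalizer hAZB ha hwZ
    have e : ⁅a, w⁆ = (a * w * a⁻¹) * w⁻¹ := by simp only [commutatorElement_def]
    rw [e]
    exact (Subgroup.mul_mem _ h4 (Subgroup.inv_mem _ hwZ)).2
  have hbH : b ∈ H := hBH hb
  have hzb : Subgroup.zpowers b ≤ H := Subgroup.zpowers_le.mpr hbH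
  refine mem_of_series_quad h s b (hBS hb) (by rw [(hgood b hb).1]; exact bot_le)
    (hgood b hb).2 ?_
  intro m
  rcases s.hZ m with hZm | hZm
  · rcases s.hch m with h1 | h1
    · rw [h1, Subgroup.commutator_bot_left, Subgroup.commutator_bot_left]
      exact bot_le
    · haveI := s.hn m
      haveI := s.hn (m + 1)
      obtain ⟨S₀, hS₀⟩ : ∃ S₀ : Subgroup G, S₀ = (N m ⊓ A₁) ⊔ N (m + 1) := ⟨_, rfl⟩
      have hS₀H : DInv H S₀ := by
        rw [hS₀]
        apply dinv_sup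
        · intro t ht x hx
          exact ⟨(s.hn m).conj_mem x hx.1 t, conj_mem_of_le_normalizer hHA₁ ht hx.2⟩
        · exact dinv_of_normal H _
      have hcompl := compl_descent h1 (hab m h1)
        (Subgroup.centralizer ((⁅A, A⁆ : Subgroup G) : Set G)) G₀ hG₀p H hCH hHG₀
      obtain ⟨R, hVR, hRU, hRH, hSR, hsup⟩ := hcompl S₀ (by rw [hS₀]; exact le_sup_right)
        (by rw [hS₀]; exact sup_le inf_le_left h1.1.le) hS₀H
      apply quad_sup (N m) (N (m + 1)) (Subgroup.zpowers b) (N m ⊓ A₁) R (hab m h1) h1.1.le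
        inf_le_left hRU
      · calc ⁅⁅N m ⊓ A₁, Subgroup.zpowers b⁆, Subgroup.zpowers b⁆
            ≤ ⁅⁅A₁, Subgroup.zpowers b⁆, Subgroup.zpowers b⁆ :=
              Subgroup.commutator_mono (Subgroup.commutator_mono inf_le_right le_rfl) le_rfl
          _ = ⊥ := hq2
          _ ≤ _ := bot_le
      · have h2 : ⁅R, Subgroup.zpowers b⁆ ≤ R :=
          (Subgroup.commutator_mono le_rfl hzb).trans (comm_le_of_dinv hRH)
        have h3 : ⁅⁅R, Subgroup.zpowers b⁆, Subgroup.zpowers b⁆ ≤ R :=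
          (Subgroup.commutator_mono h2 le_rfl).trans h2
        have h4 : ⁅⁅R, Subgroup.zpowers b⁆, Subgroup.zpowers b⁆ ≤ A₁ :=
          (Subgroup.commutator_mono (Subgroup.commutator_mono (hRU.trans (s.le m)) le_rfl)
            le_rfl).trans hq3
        intro w hw
        have h6 : w ∈ S₀ ⊓ R := by
          refine ⟨?_, h3 hw⟩
          rw [hS₀]
          exact Subgroup.mem_sup_left ⟨hRU (h3 hw), h4 hw⟩
        rw [hSR] at h6
        exact h6
      · have h7 : N m ≤ S₀ ⊔ R := hsup.ge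
        refine h7.trans ?_
        rw [hS₀]
        exact sup_le (sup_le (le_sup_left.trans le_sup_left) le_sup_right)
          (le_sup_right.trans le_sup_left)
  · calc ⁅⁅N m, Subgroup.zpowers b⁆, Subgroup.zpowers b⁆
        ≤ ⁅⁅A ⊓ Subgroup.centralizer (A : Set G), Subgroup.zpowers b⁆, Subgroup.zpowers b⁆ :=
          Subgroup.commutator_mono (Subgroup.commutator_mono hZm le_rfl) le_rfl
      _ = ⊥ := (hgood b hb).2
      _ ≤ _ := bot_le

end coreC

/-- If `C_G(O_p(G)) ≤ O_p(G)`, `A` is of critical type in `O_p(G)` and no element of the Sylow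
`p`-subgroup `S` outside `O_p(G)` is cubic on `A`, quadratic on `Z(A)` and quadratic and
nontrivial on a chief factor of `G` inside `A`, then both K-infinity subgroups of `S` are
normal in `G`. -/
theorem kinf_normal_of_no_quad {p : ℕ} [Fact p.Prime] {G : Type u} [Group G] [Finite G]
    (S : Sylow p G) (A : Subgroup G) (h : SettingC p G (S : Subgroup G) A) :
    ((kInfLower ↥(S : Subgroup G)).map (S : Subgroup G).subtype).Normal ∧
      ((kInfUpper ↥(S : Subgroup G)).map (S : Subgroup G).subtype).Normal := by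
  haveI hTn : (pCore p G).Normal := pCore_normal' p
  have hTS : pCore p G ≤ (S : Subgroup G) := pCore_le_sylow S
  have hTp : IsPGroup p ↥(pCore p G) := S.isPGroup'.to_le hTS
  have hAn := h.hAn
  have hAT := h.hAT
  have hA2 := h.hA2
  have hA3 := h.hA3
  haveI := hAn
  obtain ⟨N, hN0, hNn, hNanti, hNZ, hNch, hNc⟩ :=
    exists_chief_series (A ⊓ Subgroup.centralizer (A : Set G)) A inf_le_left
  have s : Ser A N := ⟨hN0, hNn, hNanti, hNZ, hNch, hNc⟩
  have hAS : A ≤ (S : Subgroup G) := hAT.trans hTS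
  have hinj : Function.Injective (S : Subgroup G).subtype := (S : Subgroup G).subtype_injective
  have hAmap : (A.subgroupOf (S : Subgroup G)).map (S : Subgroup G).subtype = A :=
    Subgroup.map_subgroupOf_eq_of_le hAS
  have hTmap : ((pCore p G).subgroupOf (S : Subgroup G)).map (S : Subgroup G).subtype =
      pCore p G := Subgroup.map_subgroupOf_eq_of_le hTS
  have hZmap : ((A.subgroupOf (S : Subgroup G)) ⊓ Subgroup.centralizer
      ((A.subgroupOf (S : Subgroup G) : Subgroup ↥(S : Subgroup G)) :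
        Set ↥(S : Subgroup G))).map (S : Subgroup G).subtype =
      A ⊓ Subgroup.centralizer (A : Set G) := by
    rw [map_inf_centralizer (S : Subgroup G).subtype hinj, hAmap]
  have hA2' : A.subgroupOf (S : Subgroup G) ∈ classTwoSubgroups ↥(S : Subgroup G) := by
    show ⁅A.subgroupOf (S : Subgroup G), A.subgroupOf (S : Subgroup G)⁆ ≤
      Subgroup.centralizer ((A.subgroupOf (S : Subgroup G) : Subgroup ↥(S : Subgroup G)) :
        Set ↥(S : Subgroup G))
    rw [← map_le_centralizer_map_iff (S : Subgroup G).subtype hinj, Subgroup.map_commutator,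
      hAmap]
    exact hA2
  have hA3' : ⁅(pCore p G).subgroupOf (S : Subgroup G), A.subgroupOf (S : Subgroup G)⁆ ≤
      A.subgroupOf (S : Subgroup G) ⊓ Subgroup.centralizer
        ((A.subgroupOf (S : Subgroup G) : Subgroup ↥(S : Subgroup G)) :
          Set ↥(S : Subgroup G)) := by
    rw [← Subgroup.map_le_map_iff_of_injective hinj, Subgroup.map_commutator, hZmap, hTmap,
      hAmap]
    exact hA3
  have hlow' : ∀ Q B : Subgroup ↥(S : Subgroup G), A.subgroupOf (S : Subgroup G) ≤ Q →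
      B ∈ kLowerStarFamily Q → B ≤ (pCore p G).subgroupOf (S : Subgroup G) := by
    intro Q B hAQ hB
    have h1 : B.map (S : Subgroup G).subtype ∈
        kLowerStarFamily (Q.map (S : Subgroup G).subtype) :=
      (mem_lower_map_iff (S : Subgroup G).subtype hinj B Q).mpr hB
    have h2 : A ≤ Q.map (S : Subgroup G).subtype := by
      rw [← hAmap]
      exact Subgroup.map_mono hAQ
    have h4 := lower_leC h s h1 h2 (Subgroup.map_subtype_le _)
    intro b hb
    exact Subgroup.mem_subgroupOf.mpr (h4 ⟨b, hb, rfl⟩)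
  have hup' : ∀ Q B : Subgroup ↥(S : Subgroup G), A.subgroupOf (S : Subgroup G) ≤ Q →
      B ∈ kUpperStarFamily Q → B ≤ (pCore p G).subgroupOf (S : Subgroup G) := by
    intro Q B hAQ hB
    have h1 : B.map (S : Subgroup G).subtype ∈
        kUpperStarFamily (Q.map (S : Subgroup G).subtype) :=
      (mem_upper_map_iff (S : Subgroup G).subtype hinj B Q).mpr hB
    have h2 : A ≤ Q.map (S : Subgroup G).subtype := by
      rw [← hAmap]
      exact Subgroup.map_mono hAQ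
    have h4 := upper_leC h s h1 h2 (Subgroup.map_subtype_le _)
    intro b hb
    exact Subgroup.mem_subgroupOf.mpr (h4 ⟨b, hb, rfl⟩)
  have hAl' : ∀ Q : Subgroup ↥(S : Subgroup G),
      A.subgroupOf (S : Subgroup G) ∈ kLowerStarFamily Q := by
    intro Q
    apply (mem_lower_map_iff (S : Subgroup G).subtype hinj _ Q).mp
    rw [hAmap]
    exact A_mem_lowerC h s _ (Subgroup.map_subtype_le _)
  have hfam := families_le' (A.subgroupOf (S : Subgroup G))
    ((pCore p G).subgroupOf (S : Subgroup G)) hA2' hA3' hlow' hup' hAl'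
  have hrange : ∀ B : Subgroup ↥(S : Subgroup G), B ≤ (pCore p G).subgroupOf (S : Subgroup G) →
      B ≤ (Subgroup.inclusion hTS).range := by
    intro B hB b hb
    exact ⟨⟨(b : G), Subgroup.mem_subgroupOf.mp (hB hb)⟩, Subtype.ext rfl⟩
  have hmk := map_kInf (Subgroup.inclusion hTS) (Subgroup.inclusion_injective hTS)
    (fun n => hrange _ (hfam n).2.1)
    (hrange _ ((iInf_le _ 1).trans (hfam 0).2.2))
  have hL : (kInfLower ↥(S : Subgroup G)).map (S : Subgroup G).subtype =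
      (kInfLower ↥(pCore p G)).map (pCore p G).subtype := by
    rw [← hmk.1, Subgroup.map_map]
    rfl
  have hU : (kInfUpper ↥(S : Subgroup G)).map (S : Subgroup G).subtype =
      (kInfUpper ↥(pCore p G)).map (pCore p G).subtype := by
    rw [← hmk.2, Subgroup.map_map]
    rfl
  constructor
  · rw [hL]
    exact induced_normal kInfLower (isChar_kInfLower p) (pCore p G) hTp
  · rw [hU]
    exact induced_normal kInfUpper (isChar_kInfUpper p) (pCore p G) hTp

end Cfsg.Agent.Lib.Helper12.KInfChief
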