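import Mathlib
import Cfsg.Agent.Lib.Helper12.EngelFocal
import Cfsg.Agent.Lib.Helper16.Basic

set_option autoImplicit false

/-! Transfer evaluated on fixed points, and auxiliary lemmas for Yoshida's singularity theorem. -/

namespace Cfsg.Agent.Lib.Helper12.Singular

open scoped Pointwise

/-- **Fixed point formula.** If the nontrivial cycles of `g` on `G ⧸ H` contribute trivially, the
transfer of `g` is the product over the fixed cosets. -/
theorem transfer_eq_prod_fixed {G : Type*} [Group G] [Finite G] {H : Subgroup G}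
    [Fintype (G ⧸ H)] [DecidableEq (G ⧸ H)] {A : Type*} [CommGroup A] (ϕ : ↥H →* A) (φt : G → A)
    (hφt : ∀ (y : G) (hy : y ∈ H), φt y = ϕ ⟨y, hy⟩) (g : G)
    (hcyc : ∀ (a : G) (n : ℕ), 1 < n → n ∣ orderOf g → a⁻¹ * g ^ n * a ∈ H →
      φt (a⁻¹ * g ^ n * a) = 1) :
    MonoidHom.transfer ϕ g =
      ∏ q ∈ Finset.univ.filter (fun q : G ⧸ H => g • q = q), φt (q.out⁻¹ * g * q.out) := by
  classical
  haveI : Fintype (Quotient (MulAction.orbitRel (Subgroup.zpowers g) (G ⧸ H))) :=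
    Fintype.ofFinite _
  rw [MonoidHom.transfer_eq_prod_quotient_orbitRel_zpowers_quot ϕ g]
  have h1 : ∀ q : Quotient (MulAction.orbitRel (Subgroup.zpowers g) (G ⧸ H)),
      ϕ ⟨q.out.out⁻¹ * g ^ Function.minimalPeriod (g • ·) q.out * q.out.out,
          QuotientGroup.out_conj_pow_minimalPeriod_mem H g q.out⟩ =
        φt (q.out.out⁻¹ * g ^ Function.minimalPeriod (g • ·) q.out * q.out.out) :=
    fun q => (hφt _ _).symm
  rw [Finset.prod_congr rfl (fun q _ => h1 q)]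
  have hmpos : ∀ y : G ⧸ H, 0 < Function.minimalPeriod (g • · : G ⧸ H → G ⧸ H) y := by
    intro y
    apply Function.IsPeriodicPt.minimalPeriod_pos (orderOf_pos g)
    rw [MulAction.isPeriodicPt_smul_iff, pow_orderOf_eq_one, one_smul]
  rw [← Finset.prod_filter_of_ne (p := fun q : Quotient (MulAction.orbitRel (Subgroup.zpowers g)
    (G ⧸ H)) => Function.minimalPeriod (g • · : G ⧸ H → G ⧸ H) q.out = 1)]
  · refine Finset.prod_bij (fun q _ => q.out) ?_ ?_ ?_ ?_
    · intro q hq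
      rw [Finset.mem_filter] at hq ⊢
      exact ⟨Finset.mem_univ _, Function.minimalPeriod_eq_one_iff_isFixedPt.mp hq.2⟩
    · intro q _ q' _ h
      exact Quotient.out_injective h
    · intro ω hω
      rw [Finset.mem_filter] at hω
      have hfix : ∀ z : ↥(Subgroup.zpowers g), z • ω = ω := by
        rintro ⟨z, hz⟩
        obtain ⟨k, rfl⟩ := Subgroup.mem_zpowers_iff.mp hz
        show g ^ k • ω = ω
        exact MulAction.zpow_smul_eq_iff_minimalPeriod_dvd.mpr (by
          rw [Function.minimalPeriod_eq_one_iff_isFixedPt.mpr hω.2]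
          exact one_dvd _)
      have hout : (Quotient.mk (MulAction.orbitRel (Subgroup.zpowers g) (G ⧸ H)) ω).out = ω := by
        have h2 := Quotient.mk_out (s := MulAction.orbitRel (Subgroup.zpowers g) (G ⧸ H)) ω
        obtain ⟨z, hz⟩ := h2
        rw [← hz]
        exact hfix z
      refine ⟨Quotient.mk _ ω, ?_, hout⟩
      rw [Finset.mem_filter, hout]
      exact ⟨Finset.mem_univ _, Function.minimalPeriod_eq_one_iff_isFixedPt.mpr hω.2⟩
    · intro q hq
      rw [Finset.mem_filter] at hq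
      rw [hq.2, pow_one]
  · intro q _ hne
    by_contra hq
    apply hne
    have h2 : 1 < Function.minimalPeriod (g • · : G ⧸ H → G ⧸ H) q.out := by
      have := hmpos q.out
      omega
    have h3 : Function.minimalPeriod (g • · : G ⧸ H → G ⧸ H) q.out ∣ orderOf g := by
      apply Function.IsPeriodicPt.minimalPeriod_dvd
      rw [MulAction.isPeriodicPt_smul_iff, pow_orderOf_eq_one, one_smul]
    exact hcyc _ _ h2 h3 (QuotientGroup.out_conj_pow_minimalPeriod_mem H g q.out)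

/-- the transfer of a homomorphism of exponent `n` has exponent `n`. -/
theorem transfer_pow_eq_one {G : Type*} [Group G] [Finite G] {H : Subgroup G} {A : Type*}
    [CommGroup A] (ϕ : ↥H →* A) (n : ℕ) (h : ∀ y, ϕ y ^ n = 1) (g : G) :
    MonoidHom.transfer ϕ g ^ n = 1 := by
  classical
  haveI : Fintype (Quotient (MulAction.orbitRel (Subgroup.zpowers g) (G ⧸ H))) :=
    Fintype.ofFinite _
  rw [MonoidHom.transfer_eq_prod_quotient_orbitRel_zpowers_quot ϕ g, ← Finset.prod_pow]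
  exact Finset.prod_eq_one (fun q _ => h _)

/-- a proper subgroup of a finite `p`-group lies in a normal subgroup of index `p`. -/
theorem exists_normal_index_p {P : Type*} [Group P] [Finite P] {p : ℕ} [hp : Fact p.Prime]
    (hP : IsPGroup p P) (H : Subgroup P) (hH : H ≠ ⊤) :
    ∃ K : Subgroup P, H ≤ K ∧ K.Normal ∧ K.index = p := by
  have hpp : p.Prime := hp.out
  obtain ⟨n, hn⟩ := IsPGroup.iff_card.mp hP
  obtain ⟨m, hm⟩ := IsPGroup.iff_card.mp (hP.to_subgroup H)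
  have hdvd : Nat.card ↥H ∣ Nat.card P := Subgroup.card_subgroup_dvd_card H
  rw [hm, hn] at hdvd
  have hmn : m ≤ n := (Nat.pow_dvd_pow_iff_le_right hpp.one_lt).mp hdvd
  have hne : m ≠ n := by
    intro h
    apply hH
    rw [← Subgroup.card_eq_iff_eq_top, hm, hn, h]
  have hn1 : n - 1 + 1 = n := by omega
  obtain ⟨K, hK, hHK⟩ := Sylow.exists_subgroup_card_pow_prime_le p
    (show p ^ (n - 1) ∣ Nat.card P by rw [hn]; exact pow_dvd_pow p (by omega)) H hm
    (show m ≤ n - 1 by omega)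
  have hidx : K.index = p := by
    have h1 := Subgroup.index_mul_card K
    rw [hK, hn] at h1
    have h2 : p ^ n = p * p ^ (n - 1) := by rw [← pow_succ', hn1]
    rw [h2] at h1
    exact Nat.eq_of_mul_eq_mul_right (pow_pos hpp.pos _) h1
  refine ⟨K, hHK, ?_, hidx⟩
  apply Subgroup.normal_of_index_eq_minFac_card
  rw [hidx, hn, Nat.pow_minFac (by omega), Nat.Prime.minFac_eq hpp]

/-- conjugating an Engel word. -/
theorem engel_conj' {X : Type*} [Group X] (b d : X) (n : ℕ) (y : X) :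
    b * ((fun y : X => y⁻¹ * d⁻¹ * y * d)^[n] y) * b⁻¹ =
      (fun y : X => y⁻¹ * (b * d * b⁻¹)⁻¹ * y * (b * d * b⁻¹))^[n] (b * y * b⁻¹) := by
  induction n with
  | zero => rfl
  | succ n ih =>
    rw [Function.iterate_succ_apply', Function.iterate_succ_apply', ← ih]
    group

/-- Engel words stay in a normal subgroup. -/
theorem engel_mem_normal {X : Type*} [Group X] (U : Subgroup X) [hU : U.Normal] (d : X) (n : ℕ)
    (y : X) (hy : y ∈ U) : (fun y : X => y⁻¹ * d⁻¹ * y * d)^[n] y ∈ U := by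
  induction n with
  | zero => exact hy
  | succ n ih =>
    rw [Function.iterate_succ_apply']
    have h1 : d⁻¹ * ((fun y : X => y⁻¹ * d⁻¹ * y * d)^[n] y) * d ∈ U := by
      have := hU.conj_mem _ ih d⁻¹
      simpa using this
    have e : ((fun y : X => y⁻¹ * d⁻¹ * y * d)^[n] y)⁻¹ * d⁻¹ *
        ((fun y : X => y⁻¹ * d⁻¹ * y * d)^[n] y) * d =
        ((fun y : X => y⁻¹ * d⁻¹ * y * d)^[n] y)⁻¹ *
          (d⁻¹ * ((fun y : X => y⁻¹ * d⁻¹ * y * d)^[n] y) * d) := by group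
    show ((fun y : X => y⁻¹ * d⁻¹ * y * d)^[n] y)⁻¹ * d⁻¹ *
        ((fun y : X => y⁻¹ * d⁻¹ * y * d)^[n] y) * d ∈ U
    rw [e]
    exact U.mul_mem (U.inv_mem ih) h1

/-- a subgroup containing `Tb`, not containing `Fb`, and containing the `p`-th powers of `Fb`. -/
theorem exists_sub {C : Type*} [CommGroup C] [Finite C] {p : ℕ} (Tb Fb : Subgroup C)
    (hF : ∀ f ∈ Fb, ∃ e : ℕ, f ^ (p ^ e) = 1) (hne : ¬ Fb ≤ Tb) :
    ∃ B : Subgroup C, Tb ≤ B ∧ (∀ f ∈ Fb, f ^ p ∈ B) ∧ ¬ Fb ≤ B := by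
  classical
  have hne' : ∃ B : Subgroup C, Tb ≤ B ∧ ¬ Fb ≤ B := ⟨Tb, le_refl _, hne⟩
  obtain ⟨B, ⟨hTB, hFB⟩, hmax⟩ :=
    Set.Finite.exists_maximal (s := {B : Subgroup C | Tb ≤ B ∧ ¬ Fb ≤ B}) (Set.toFinite _) hne'
  refine ⟨B, hTB, ?_, hFB⟩
  intro f hf
  by_contra hfp
  have h1 : Fb ≤ B ⊔ Subgroup.zpowers (f ^ p) := by
    by_contra h1
    have h2 := hmax (show B ⊔ Subgroup.zpowers (f ^ p) ∈ {B : Subgroup C | Tb ≤ B ∧ ¬ Fb ≤ B}
      from ⟨hTB.trans le_sup_left, h1⟩) le_sup_left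
    exact hfp (h2 (le_sup_right (a := B) (Subgroup.mem_zpowers (f ^ p))))
  obtain ⟨b, hb, z, hz, hbz⟩ := Subgroup.mem_sup.mp (h1 hf)
  obtain ⟨k, rfl⟩ := Subgroup.mem_zpowers_iff.mp hz
  obtain ⟨e, he⟩ := hF f hf
  have hb' : b = f ^ (1 - (p : ℤ) * k) := by
    have h3 : f ^ ((p : ℤ) * k) = (f ^ p) ^ k := by rw [zpow_mul, zpow_natCast]
    rw [zpow_sub, zpow_one, h3]
    exact eq_mul_inv_of_mul_eq hbz
  have hfe : f ^ (((p : ℤ) * k) ^ e) = 1 := by
    rw [mul_pow, zpow_mul, ← Nat.cast_pow, zpow_natCast, he, one_zpow]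
  have hfb : f = b ^ (∑ i ∈ Finset.range e, ((p : ℤ) * k) ^ i) := by
    rw [hb', ← zpow_mul, mul_neg_geom_sum, zpow_sub, zpow_one, hfe, inv_one, mul_one]
  apply hfp
  rw [hfb]
  exact B.pow_mem (B.zpow_mem hb _) p

/-- fixed cosets. -/
theorem smul_mk_eq_iff {G : Type*} [Group G] (H : Subgroup G) (u g : G) :
    u • (QuotientGroup.mk g : G ⧸ H) = QuotientGroup.mk g ↔ g⁻¹ * u * g ∈ H := by
  show ((u * g : G) : G ⧸ H) = (g : G ⧸ H) ↔ _
  rw [QuotientGroup.eq]
  have e : (u * g)⁻¹ * g = (g⁻¹ * u * g)⁻¹ := by group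
  rw [e, inv_mem_iff]

end Cfsg.Agent.Lib.Helper12.Singular
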