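import Mathlib
import Cfsg.Prelude.Def_Transfer
import Cfsg.Agent.Lib.Helper12.Singular

set_option autoImplicit false
set_option maxHeartbeats 1600000

/-! Yoshida's singularity theorem for a weakly closed subgroup. -/

namespace Cfsg.Agent.Lib.Helper12.Singular

open Cfsg.Agent.Lib.Helper12.SylowBasic Cfsg.Agent.Lib.Helper12.EngelFocal
open scoped Pointwise commutatorElement

theorem inv_conj_pow {X : Type*} [Group X] (a b : X) (n : ℕ) :
    (a⁻¹ * b * a) ^ n = a⁻¹ * b ^ n * a := by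
  induction n with
  | zero => simp
  | succ n ih => rw [pow_succ, ih, pow_succ]; group

theorem engel_mem_sub {X : Type*} [Group X] (L : Subgroup X) (d y : X) (hd : d ∈ L) (hy : y ∈ L)
    (n : ℕ) : (fun y : X => y⁻¹ * d⁻¹ * y * d)^[n] y ∈ L := by
  have h := engel_coe L ⟨d, hd⟩ ⟨y, hy⟩ n
  rw [← h]
  exact Subtype.property _

theorem main {G : Type*} [Group G] [Finite G] {p : ℕ} [hp : Fact p.Prime] (S : Sylow p G)
    (W : Subgroup G) (hW : Cfsg.IsWeaklyClosed W (S : Subgroup G))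
    (h : (S : Subgroup G) ⊓ commutator G ≠ (S : Subgroup G) ⊓
      ⁅Subgroup.normalizer (W : Set G), Subgroup.normalizer (W : Set G)⁆) :
    ∃ x ∈ (S : Subgroup G), ∃ z ∈ W, ∃ W₀ : Subgroup ↥W, IsCoatom W₀ ∧
      (fun y : G => y⁻¹ * z⁻¹ * y * z)^[p - 1] x ∈ W₀.map W.subtype ∧
      (fun y : G => y⁻¹ * z⁻¹ * y * z)^[p - 1] x ∉
        ((frattini ↥W₀).map W₀.subtype).map W.subtype := by
  classical
  by_contra hNS
  push_neg at hNS
  have hpp : p.Prime := hp.out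
  obtain ⟨hWS, hWc⟩ := hW
  obtain ⟨N, hNdef⟩ : ∃ N : Subgroup G, N = Subgroup.normalizer (W : Set G) := ⟨_, rfl⟩
  rw [← hNdef] at h
  have hmemN : ∀ g : G, g ∈ N ↔ ∀ w : G, w ∈ W ↔ g * w * g⁻¹ ∈ W := by
    intro g
    rw [hNdef]
    exact Subgroup.mem_normalizer_iff
  have hwc : ∀ g : G, (∀ w ∈ W, g * w * g⁻¹ ∈ (S : Subgroup G)) → g ∈ N := by
    intro g hg
    have h1 := hWc g ((map_conj_le_iff W _ g).mpr hg)
    rw [hmemN]
    intro w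
    constructor
    · intro hw
      rw [← h1]
      exact conj_mem_map_conj W g w hw
    · intro hw
      rw [← h1, mem_map_conj_iff] at hw
      have e : g⁻¹ * (g * w * g⁻¹) * g = w := by group
      rwa [e] at hw
  have hSN : (S : Subgroup G) ≤ N := by
    intro s hs
    apply hwc
    intro w hw
    exact Subgroup.mul_mem _ (Subgroup.mul_mem _ hs (hWS hw)) (Subgroup.inv_mem _ hs)
  have hWconj : ∀ s ∈ (S : Subgroup G), ∀ w ∈ W, s * w * s⁻¹ ∈ W := by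
    intro s hs w hw
    exact ((hmemN s).mp (hSN hs) w).mp hw
  have hWconj' : ∀ s ∈ (S : Subgroup G), ∀ w ∈ W, s⁻¹ * w * s ∈ W := by
    intro s hs w hw
    have := hWconj s⁻¹ (Subgroup.inv_mem _ hs) w hw
    simpa using this
  -- the homomorphism
  obtain ⟨B, hTB, hFB, hnB⟩ := exists_sub (p := p)
    ((((S : Subgroup G) ⊓ ⁅N, N⁆).subgroupOf (S : Subgroup G)).map Abelianization.of)
    ((((S : Subgroup G) ⊓ commutator G).subgroupOf (S : Subgroup G)).map Abelianization.of)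
    (by
      rintro _ ⟨f, -, rfl⟩
      obtain ⟨e, he⟩ := S.isPGroup' f
      exact ⟨e, by rw [← map_pow, he, map_one]⟩)
    (by
      intro hle
      apply h
      apply le_antisymm
      · intro y hy
        obtain ⟨hyS, hyG⟩ := Subgroup.mem_inf.mp hy
        have h1 : Abelianization.of (⟨y, hyS⟩ : ↥(S : Subgroup G)) ∈
            (((S : Subgroup G) ⊓ ⁅N, N⁆).subgroupOf (S : Subgroup G)).map Abelianization.of :=
          hle ⟨⟨y, hyS⟩, Subgroup.mem_subgroupOf.mpr hy, rfl⟩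
        obtain ⟨t, ht, hty⟩ := h1
        have h2 : t⁻¹ * ⟨y, hyS⟩ ∈ commutator ↥(S : Subgroup G) := by
          rw [← Abelianization.ker_of, MonoidHom.mem_ker, map_mul, map_inv, hty, inv_mul_cancel]
        have h3 : ((t⁻¹ * ⟨y, hyS⟩ : ↥(S : Subgroup G)) : G) ∈ ⁅N, N⁆ := by
          have h4 : (commutator ↥(S : Subgroup G)).map (S : Subgroup G).subtype ≤ ⁅N, N⁆ := by
            rw [Subgroup.map_subtype_commutator]
            exact Subgroup.commutator_mono hSN hSN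
          exact h4 ⟨_, h2, rfl⟩
        have h5 : (t : G) ∈ ⁅N, N⁆ := (Subgroup.mem_inf.mp (Subgroup.mem_subgroupOf.mp ht)).2
        refine Subgroup.mem_inf.mpr ⟨hyS, ?_⟩
        have e : y = (t : G) * ((t⁻¹ * ⟨y, hyS⟩ : ↥(S : Subgroup G)) : G) := by
          simp
        rw [e]
        exact Subgroup.mul_mem _ h5 h3
      · exact inf_le_inf_left _ (by rw [commutator_def]; exact Subgroup.commutator_mono le_top le_top))
  obtain ⟨χ, hχ⟩ : ∃ χ : ↥(S : Subgroup G) →* (Abelianization ↥(S : Subgroup G) ⧸ B),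
      χ = (QuotientGroup.mk' B).comp Abelianization.of := ⟨_, rfl⟩
  have hχ1 : ∀ y : ↥(S : Subgroup G), χ y = 1 ↔ Abelianization.of y ∈ B := by
    intro y
    rw [hχ]
    exact QuotientGroup.eq_one_iff _
  have hχT : ∀ (v : G) (hv : v ∈ (S : Subgroup G)), v ∈ ⁅N, N⁆ → χ ⟨v, hv⟩ = 1 := by
    intro v hv hvN
    rw [hχ1]
    exact hTB ⟨⟨v, hv⟩, Subgroup.mem_subgroupOf.mpr (Subgroup.mem_inf.mpr ⟨hv, hvN⟩), rfl⟩
  have hχ2 : ∀ (v : G) (hv : v ∈ (S : Subgroup G)), v ∈ commutator G → χ ⟨v, hv⟩ ^ p = 1 := by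
    intro v hv hvG
    rw [← map_pow, hχ1, map_pow]
    exact hFB _ ⟨⟨v, hv⟩, Subgroup.mem_subgroupOf.mpr (Subgroup.mem_inf.mpr ⟨hv, hvG⟩), rfl⟩
  have hχ3 : ∃ (x : G) (hx : x ∈ (S : Subgroup G)), x ∈ commutator G ∧ χ ⟨x, hx⟩ ≠ 1 := by
    by_contra hcon
    push_neg at hcon
    apply hnB
    rintro _ ⟨f, hf, rfl⟩
    have hf' := Subgroup.mem_inf.mp (Subgroup.mem_subgroupOf.mp hf)
    rw [← hχ1]
    exact hcon f f.2 hf'.2
  obtain ⟨x, ⟨hxS, hxG, hχx⟩, hmin⟩ := WellFounded.has_min (measure (orderOf : G → ℕ)).wf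
    {y : G | ∃ hy : y ∈ (S : Subgroup G), y ∈ commutator G ∧ χ ⟨y, hy⟩ ≠ 1}
    (by obtain ⟨x, hx, h1, h2⟩ := hχ3; exact ⟨x, hx, h1, h2⟩)
  have hmin' : ∀ (y : G) (hy : y ∈ (S : Subgroup G)), y ∈ commutator G →
      orderOf y < orderOf x → χ ⟨y, hy⟩ = 1 := by
    intro y hy hyG hlt
    by_contra hne
    exact hmin y ⟨hy, hyG, hne⟩ hlt
  obtain ⟨χt, hχt⟩ : ∃ χt : G → (Abelianization ↥(S : Subgroup G) ⧸ B),
      ∀ (y : G) (hy : y ∈ (S : Subgroup G)), χt y = χ ⟨y, hy⟩ :=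
    ⟨fun y => if hy : y ∈ (S : Subgroup G) then χ ⟨y, hy⟩ else 1, fun y hy => dif_pos hy⟩
  have hχt_mul : ∀ a b : G, a ∈ (S : Subgroup G) → b ∈ (S : Subgroup G) →
      χt (a * b) = χt a * χt b := by
    intro a b ha hb
    rw [hχt _ (Subgroup.mul_mem _ ha hb), hχt _ ha, hχt _ hb, ← map_mul]
    rfl
  have hχt_inv : ∀ a : G, a ∈ (S : Subgroup G) → χt a⁻¹ = (χt a)⁻¹ := by
    intro a ha
    rw [hχt _ (Subgroup.inv_mem _ ha), hχt _ ha, ← map_inv]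
    rfl
  have hχt_conj : ∀ v s : G, v ∈ (S : Subgroup G) → s ∈ (S : Subgroup G) →
      χt (s⁻¹ * v * s) = χt v := by
    intro v s hv hs
    rw [hχt_mul _ _ (Subgroup.mul_mem _ (Subgroup.inv_mem _ hs) hv) hs,
      hχt_mul _ _ (Subgroup.inv_mem _ hs) hv, hχt_inv _ hs, mul_comm, ← mul_assoc,
      mul_inv_cancel, one_mul]
  have hχt_N : ∀ v n : G, v ∈ (S : Subgroup G) → n ∈ N → n⁻¹ * v * n ∈ (S : Subgroup G) →
      χt (n⁻¹ * v * n) = χt v := by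
    intro v n hv hn hvn
    have h1 : χt (n⁻¹ * v * n * v⁻¹) = 1 := by
      rw [hχt _ (Subgroup.mul_mem _ hvn (Subgroup.inv_mem _ hv))]
      apply hχT
      have e : n⁻¹ * v * n * v⁻¹ = ⁅n⁻¹, v⁆ := by rw [commutatorElement_def]; group
      rw [e]
      exact Subgroup.commutator_mem_commutator (Subgroup.inv_mem _ hn) (hSN hv)
    rw [hχt_mul _ _ hvn (Subgroup.inv_mem _ hv), hχt_inv _ hv] at h1
    exact mul_inv_eq_one.mp h1
  have hχt_p : ∀ v : G, v ∈ (S : Subgroup G) → v ∈ commutator G → χt v ^ p = 1 := by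
    intro v hv hvG
    rw [hχt v hv]
    exact hχ2 v hv hvG
  have hχt_min : ∀ y : G, y ∈ (S : Subgroup G) → y ∈ commutator G → orderOf y < orderOf x →
      χt y = 1 := by
    intro y hy hyG hlt
    rw [hχt y hy]
    exact hmin' y hy hyG hlt
  have hcomm_conj : ∀ v g : G, v ∈ commutator G → g⁻¹ * v * g ∈ commutator G := by
    intro v g hv
    have := (inferInstance : (commutator G).Normal).conj_mem v hv g⁻¹
    simpa using this
  have horder_conj : ∀ v g : G, orderOf (g⁻¹ * v * g) = orderOf v := by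
    intro v g
    have := orderOf_injective (MulAut.conj g⁻¹).toMonoidHom (MulAut.conj g⁻¹).injective v
    simpa [MulAut.conj_apply] using this
  have hpow_lt : ∀ n : ℕ, 1 < n → n ∣ orderOf x → orderOf (x ^ n) < orderOf x := by
    intro n hn hdvd
    rw [orderOf_pow_of_dvd (by omega) hdvd]
    exact Nat.div_lt_self (orderOf_pos x) hn
  have hkill : ∀ (a : G) (n : ℕ), 1 < n → n ∣ orderOf x → a⁻¹ * x ^ n * a ∈ (S : Subgroup G) →
      χt (a⁻¹ * x ^ n * a) = 1 := by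
    intro a n hn hdvd hmem
    apply hχt_min _ hmem (hcomm_conj _ _ (Subgroup.pow_mem _ hxG n))
    rw [horder_conj]
    exact hpow_lt n hn hdvd
  -- Step 1: the transfer
  haveI : Fintype (G ⧸ (S : Subgroup G)) := Fintype.ofFinite _
  have hτ : ∏ q ∈ Finset.univ.filter (fun q : G ⧸ (S : Subgroup G) => x • q = q),
      χt (q.out⁻¹ * x * q.out) = 1 := by
    rw [← transfer_eq_prod_fixed χ χt hχt x hkill]
    exact Abelianization.commutator_subset_ker (MonoidHom.transfer χ) hxG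
  obtain ⟨Fx, hFx⟩ : ∃ Fx : Finset (G ⧸ (S : Subgroup G)),
      Fx = Finset.univ.filter (fun q : G ⧸ (S : Subgroup G) => x • q = q) := ⟨_, rfl⟩
  rw [← hFx] at hτ
  have hmemFx : ∀ q, q ∈ Fx ↔ x • q = q := by
    intro q
    rw [hFx]
    simp
  have hcardFx : ¬ p ∣ Fx.card := by
    have hZp : IsPGroup p ↥(Subgroup.zpowers x) :=
      S.isPGroup'.to_le (Subgroup.zpowers_le.mpr hxS)
    have h1 := hZp.card_modEq_card_fixedPoints (G ⧸ (S : Subgroup G))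
    have h2 : Nat.card ↥(MulAction.fixedPoints ↥(Subgroup.zpowers x) (G ⧸ (S : Subgroup G))) =
        Fx.card := by
      rw [← Nat.card_eq_finsetCard Fx]
      apply Nat.card_congr
      apply Equiv.subtypeEquivRight
      intro q
      rw [hmemFx, MulAction.mem_fixedPoints]
      constructor
      · intro hq
        exact hq ⟨x, Subgroup.mem_zpowers x⟩
      · intro hq z
        obtain ⟨z, hz⟩ := z
        obtain ⟨k, rfl⟩ := Subgroup.mem_zpowers_iff.mp hz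
        show x ^ k • q = q
        exact MulAction.zpow_smul_eq_iff_minimalPeriod_dvd.mpr (by
          rw [Function.minimalPeriod_eq_one_iff_isFixedPt.mpr hq]
          exact one_dvd _)
    intro hdvd
    rw [h2] at h1
    have h3 : p ∣ Nat.card (G ⧸ (S : Subgroup G)) :=
      (Nat.modEq_zero_iff_dvd.mp (h1.trans (Nat.modEq_zero_iff_dvd.mpr hdvd)))
    exact S.not_dvd_index h3
  have hprod_ne : ∏ q ∈ Fx, (χt (q.out⁻¹ * x * q.out) * (χt x)⁻¹) ≠ 1 := by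
    rw [Finset.prod_mul_distrib, hτ, one_mul, Finset.prod_const]
    intro h1
    rw [inv_pow, inv_eq_one] at h1
    have h2 : χt x ^ (Fx.card.gcd p) = 1 := pow_gcd_eq_one.mpr ⟨h1, hχt_p x hxS hxG⟩
    have h3 : Fx.card.gcd p = 1 := ((Nat.Prime.coprime_iff_not_dvd hpp).mpr hcardFx).symm
    rw [h3, pow_one, hχt x hxS] at h2
    exact hχx h2
  apply hprod_ne
  obtain ⟨P₁, hP₁⟩ : ∃ P₁ : Subgroup G, P₁ = W ⊔ Subgroup.zpowers x := ⟨_, rfl⟩
  have hWP₁ : W ≤ P₁ := hP₁ ▸ le_sup_left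
  have hxP₁ : x ∈ P₁ := hP₁ ▸ (le_sup_right (a := W) (Subgroup.mem_zpowers x))
  have hP₁le : P₁ ≤ W ⊔ Subgroup.zpowers x := hP₁.le
  have hP₁S : P₁ ≤ (S : Subgroup G) := by
    rw [hP₁]
    exact sup_le hWS (Subgroup.zpowers_le.mpr hxS)
  apply Finset.prod_cancels_of_partition_cancels (MulAction.orbitRel ↥P₁ (G ⧸ (S : Subgroup G)))
  intro ω₀ hω₀
  have hxω₀ : x • ω₀ = ω₀ := (hmemFx ω₀).mp hω₀
  have hclass : ∀ a : G ⧸ (S : Subgroup G),
      a ∈ Fx.filter (fun a => (MulAction.orbitRel ↥P₁ (G ⧸ (S : Subgroup G))) a ω₀) ↔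
        (x • a = a ∧ ∃ b : ↥P₁, b • ω₀ = a) := by
    intro a
    rw [Finset.mem_filter, hmemFx]
    rfl
  obtain ⟨g₀, hg₀⟩ : ∃ g₀ : G, g₀ = ω₀.out := ⟨_, rfl⟩
  have hω₀mk : ω₀ = QuotientGroup.mk g₀ := by
    rw [hg₀]
    exact (QuotientGroup.out_eq' ω₀).symm
  have hsmul : ∀ b : G, b • ω₀ = (QuotientGroup.mk (b * g₀) : G ⧸ (S : Subgroup G)) := by
    intro b
    rw [hω₀mk]
    rfl
  have hfixc : ∀ u b : G, u • (b • ω₀) = b • ω₀ ↔
      (b * g₀)⁻¹ * u * (b * g₀) ∈ (S : Subgroup G) := by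
    intro u b
    rw [hsmul]
    exact smul_mk_eq_iff _ u (b * g₀)
  have hfix0 : ∀ u : G, u • ω₀ = ω₀ ↔ g₀⁻¹ * u * g₀ ∈ (S : Subgroup G) := by
    intro u
    have h1 := hfixc u 1
    rw [one_smul, one_mul] at h1
    exact h1
  have hval : ∀ b : G, b ∈ (S : Subgroup G) → x • (b • ω₀) = b • ω₀ →
      χt ((b • ω₀).out⁻¹ * x * (b • ω₀).out) = χt (g₀⁻¹ * (b⁻¹ * x * b) * g₀) := by
    intro b hb hfix
    have h1 := (hfixc x b).mp hfix
    obtain ⟨s, hs⟩ := QuotientGroup.mk_out_eq_mul (S : Subgroup G) (b * g₀)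
    rw [hsmul, hs]
    have e : (b * g₀ * (s : G))⁻¹ * x * (b * g₀ * (s : G)) =
        (s : G)⁻¹ * ((b * g₀)⁻¹ * x * (b * g₀)) * (s : G) := by group
    rw [e, hχt_conj _ _ h1 s.2]
    congr 1
    group
  by_cases hg₀N : g₀ ∈ N
  · apply Finset.prod_eq_one
    intro a ha
    obtain ⟨hxa, b, rfl⟩ := (hclass a).mp ha
    have hbS : (b : G) ∈ (S : Subgroup G) := hP₁S b.2
    have hfix : x • ((b : G) • ω₀) = (b : G) • ω₀ := hxa
    rw [show (b • ω₀ : G ⧸ (S : Subgroup G)) = (b : G) • ω₀ from rfl, hval _ hbS hfix]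
    have h1 := (hfixc x b).mp hfix
    have e : g₀⁻¹ * ((b : G)⁻¹ * x * b) * g₀ = ((b : G) * g₀)⁻¹ * x * ((b : G) * g₀) := by group
    rw [e, hχt_N x _ hxS (Subgroup.mul_mem _ (hSN hbS) hg₀N) h1, mul_inv_cancel]
  · have hw₀ : ∃ w₀ ∈ W, w₀ • ω₀ ≠ ω₀ := by
      by_contra hcon
      push_neg at hcon
      apply hg₀N
      have h1 : g₀⁻¹ ∈ N := by
        apply hwc
        intro w hw
        rw [inv_inv]
        exact (hfix0 w).mp (hcon w hw)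
      simpa using Subgroup.inv_mem _ h1
    have hP₁p : IsPGroup p ↥P₁ := S.isPGroup'.to_le hP₁S
    obtain ⟨w₀, hw₀W, hw₀ω⟩ := hw₀
    have hSt : MulAction.stabilizer ↥P₁ ω₀ ≠ ⊤ := by
      intro htop
      apply hw₀ω
      have h1 : (⟨w₀, hWP₁ hw₀W⟩ : ↥P₁) ∈ MulAction.stabilizer ↥P₁ ω₀ := by
        rw [htop]
        exact Subgroup.mem_top _
      exact MulAction.mem_stabilizer_iff.mp h1
    obtain ⟨D₂, hStD₂, hD₂n, hD₂idx⟩ := exists_normal_index_p hP₁p _ hSt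
    haveI := hD₂n
    obtain ⟨x₁, hx₁⟩ : ∃ x₁ : ↥P₁, x₁ = ⟨x, hxP₁⟩ := ⟨_, rfl⟩
    have hx₁D₂ : x₁ ∈ D₂ := hStD₂ (by
      rw [hx₁]
      exact MulAction.mem_stabilizer_iff.mpr hxω₀)
    obtain ⟨w, hwW, hwD₂⟩ : ∃ w : ↥P₁, (w : G) ∈ W ∧ w ∉ D₂ := by
      by_contra hcon
      push_neg at hcon
      have h1 : P₁ ≤ D₂.map P₁.subtype := by
        refine hP₁le.trans (sup_le ?_ ?_)
        · intro v hv
          exact ⟨⟨v, hWP₁ hv⟩, hcon ⟨v, hWP₁ hv⟩ hv, rfl⟩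
        · rw [Subgroup.zpowers_le]
          exact ⟨x₁, hx₁D₂, by rw [hx₁]; rfl⟩
      have h2 : D₂ = ⊤ := by
        rw [eq_top_iff]
        intro v _
        obtain ⟨v', hv', hvv⟩ := h1 v.2
        have : v' = v := Subtype.ext hvv
        rwa [this] at hv'
      rw [h2, Subgroup.index_top] at hD₂idx
      exact hpp.one_lt.ne hD₂idx
    have hQcard : Nat.card (↥P₁ ⧸ D₂) = p := hD₂idx
    have hdecomp : ∀ w' : ↥P₁, w' ∉ D₂ → ∀ b : ↥P₁, ∃ j : ℕ, j < p ∧ (w' ^ j)⁻¹ * b ∈ D₂ := by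
      intro w' hw' b
      have h1 : (QuotientGroup.mk w' : ↥P₁ ⧸ D₂) ≠ 1 := by
        intro h
        exact hw' ((QuotientGroup.eq_one_iff w').mp h)
      obtain ⟨k, hk⟩ := mem_powers_of_prime_card hQcard h1
        (g' := (QuotientGroup.mk b : ↥P₁ ⧸ D₂))
      refine ⟨k % p, Nat.mod_lt _ hpp.pos, ?_⟩
      have h2 : (QuotientGroup.mk w' : ↥P₁ ⧸ D₂) ^ (k % p) = QuotientGroup.mk b := by
        rw [← hk]
        have := pow_mod_natCard (QuotientGroup.mk w' : ↥P₁ ⧸ D₂) k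
        rwa [hQcard] at this
      rw [← QuotientGroup.eq, QuotientGroup.mk_pow]
      exact h2
    have hw_inj : ∀ j j' : ℕ, j < p → j' < p → (w ^ j')⁻¹ * w ^ j ∈ D₂ → j = j' := by
      intro j j' hj hj' hmem
      have h1 : (QuotientGroup.mk w : ↥P₁ ⧸ D₂) ≠ 1 :=
        fun h => hwD₂ ((QuotientGroup.eq_one_iff w).mp h)
      have h2 : (QuotientGroup.mk w : ↥P₁ ⧸ D₂) ^ p = 1 := by
        have := pow_card_eq_one' (G := ↥P₁ ⧸ D₂) (x := QuotientGroup.mk w)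
        rwa [hQcard] at this
      have h3 : orderOf (QuotientGroup.mk w : ↥P₁ ⧸ D₂) = p := orderOf_eq_prime h2 h1
      have h4 : (QuotientGroup.mk w : ↥P₁ ⧸ D₂) ^ j' = (QuotientGroup.mk w : ↥P₁ ⧸ D₂) ^ j := by
        rw [← QuotientGroup.mk_pow, ← QuotientGroup.mk_pow, QuotientGroup.eq]
        exact hmem
      have h5 := pow_eq_pow_iff_modEq.mp h4
      rw [h3] at h5
      exact (Nat.ModEq.eq_of_lt_of_lt h5 hj' hj).symm
    have hmemU : ∀ j : ℕ, (w ^ j)⁻¹ * x₁ * w ^ j ∈ D₂ := by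
      intro j
      have := hD₂n.conj_mem x₁ hx₁D₂ (w ^ j)⁻¹
      simpa using this
    obtain ⟨St₂, hSt₂⟩ : ∃ St₂ : Subgroup ↥D₂, St₂ = MulAction.stabilizer ↥D₂ ω₀ := ⟨_, rfl⟩
    have hSt₂iff : ∀ d : ↥D₂, d ∈ St₂ ↔ (d : ↥P₁) • ω₀ = ω₀ := by
      intro d
      rw [hSt₂]
      exact MulAction.mem_stabilizer_iff
    have hSt₂mem : ∀ d : ↥D₂, d ∈ St₂ ↔ g₀⁻¹ * ((d : ↥P₁) : G) * g₀ ∈ (S : Subgroup G) := by
      intro d
      rw [hSt₂, MulAction.mem_stabilizer_iff]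
      exact hfix0 ((d : ↥P₁) : G)
    obtain ⟨θt, hθt⟩ : ∃ θt : ↥D₂ → (Abelianization ↥(S : Subgroup G) ⧸ B), ∀ d : ↥D₂,
        θt d = χt (g₀⁻¹ * ((d : ↥P₁) : G) * g₀) * (χt ((d : ↥P₁) : G))⁻¹ := ⟨_, fun d => rfl⟩
    have hcS : ∀ d : ↥D₂, ((d : ↥P₁) : G) ∈ (S : Subgroup G) := fun d => hP₁S (d : ↥P₁).2
    have hθ : ∃ θ : ↥St₂ →* (Abelianization ↥(S : Subgroup G) ⧸ B),
        ∀ (d : ↥D₂) (hd : d ∈ St₂), θt d = θ ⟨d, hd⟩ := by
      refine ⟨{ toFun := fun d => θt (d : ↥D₂), map_one' := ?_, map_mul' := ?_ },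
        fun d hd => rfl⟩
      · show θt ((1 : ↥St₂) : ↥D₂) = 1
        rw [hθt]
        simp only [Subgroup.coe_one, mul_one, inv_mul_cancel, mul_inv_cancel]
      · intro d d'
        show θt ((d * d' : ↥St₂) : ↥D₂) = θt d * θt d'
        rw [hθt, hθt, hθt]
        have h1 := (hSt₂mem d).mp d.2
        have h2 := (hSt₂mem d').mp d'.2
        have e : g₀⁻¹ * ((((d * d' : ↥St₂) : ↥D₂) : ↥P₁) : G) * g₀ =
            (g₀⁻¹ * (((d : ↥D₂) : ↥P₁) : G) * g₀) * (g₀⁻¹ * (((d' : ↥D₂) : ↥P₁) : G) * g₀) := by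
          simp only [Subgroup.coe_mul]
          group
        have e2 : ((((d * d' : ↥St₂) : ↥D₂) : ↥P₁) : G) =
            (((d : ↥D₂) : ↥P₁) : G) * (((d' : ↥D₂) : ↥P₁) : G) := by
          simp only [Subgroup.coe_mul]
        rw [e, hχt_mul _ _ h1 h2, e2, hχt_mul _ _ (hcS d) (hcS d'), mul_inv]
        exact mul_mul_mul_comm _ _ _ _
    obtain ⟨θ, hθθ⟩ := hθ
    have hθp : ∀ d : ↥St₂, θ d ^ p = 1 := by
      intro d
      rw [← hθθ (d : ↥D₂) d.2, hθt]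
      have h1 := (hSt₂mem d).mp d.2
      have hc := hcS (d : ↥D₂)
      rw [← hχt_inv _ hc, ← hχt_mul _ _ h1 (Subgroup.inv_mem _ hc)]
      apply hχt_p _ (Subgroup.mul_mem _ h1 (Subgroup.inv_mem _ hc))
      have e : g₀⁻¹ * (((d : ↥D₂) : ↥P₁) : G) * g₀ * ((((d : ↥D₂) : ↥P₁) : G))⁻¹ =
          ⁅g₀⁻¹, (((d : ↥D₂) : ↥P₁) : G)⁆ := by
        rw [commutatorElement_def]
        group
      rw [e, commutator_def]
      exact Subgroup.commutator_mem_commutator (Subgroup.mem_top _) (Subgroup.mem_top _)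
    obtain ⟨γ, hγ⟩ : ∃ γ : ↥D₂ →* (Abelianization ↥(S : Subgroup G) ⧸ B),
        γ = MonoidHom.transfer θ := ⟨_, rfl⟩
    have hγp : ∀ d : ↥D₂, γ d ^ p = 1 := by
      intro d
      rw [hγ]
      exact transfer_pow_eq_one θ p hθp d
    haveI : Fintype (↥D₂ ⧸ St₂) := Fintype.ofFinite _
    have hcoeconj : ∀ (j n : ℕ) (a : ↥D₂),
        (((a⁻¹ * (⟨(w ^ j)⁻¹ * x₁ * w ^ j, hmemU j⟩ : ↥D₂) ^ n * a : ↥D₂) : ↥P₁) : G) =
          (((w ^ j : ↥P₁) : G) * ((a : ↥P₁) : G))⁻¹ * x ^ n *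
            (((w ^ j : ↥P₁) : G) * ((a : ↥P₁) : G)) := by
      intro j n a
      have hx₁c : (x₁ : G) = x := by rw [hx₁]
      simp only [Subgroup.coe_mul, Subgroup.coe_inv, Subgroup.coe_pow, hx₁c, inv_conj_pow]
      group
    have hγy : ∀ j : ℕ, γ ⟨(w ^ j)⁻¹ * x₁ * w ^ j, hmemU j⟩ =
        ∏ r ∈ Finset.univ.filter (fun r : ↥D₂ ⧸ St₂ =>
          (⟨(w ^ j)⁻¹ * x₁ * w ^ j, hmemU j⟩ : ↥D₂) • r = r),
          θt (r.out⁻¹ * ⟨(w ^ j)⁻¹ * x₁ * w ^ j, hmemU j⟩ * r.out) := by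
      intro j
      rw [hγ]
      apply transfer_eq_prod_fixed θ θt hθθ
      intro a n hn hdvd hmem
      have hdvd' : n ∣ orderOf x := by
        have h1 : orderOf (⟨(w ^ j)⁻¹ * x₁ * w ^ j, hmemU j⟩ : ↥D₂) = orderOf x := by
          rw [← Subgroup.orderOf_coe, ← Subgroup.orderOf_coe]
          have h2 := hcoeconj j 1 1
          simp only [pow_one, inv_one, one_mul, mul_one, Subgroup.coe_one] at h2
          rw [h2, horder_conj]
        rwa [h1] at hdvd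
      rw [hθt, hcoeconj j n a]
      have e1 : g₀⁻¹ * ((((w ^ j : ↥P₁) : G) * ((a : ↥P₁) : G))⁻¹ * x ^ n *
          (((w ^ j : ↥P₁) : G) * ((a : ↥P₁) : G))) * g₀ =
          ((((w ^ j : ↥P₁) : G) * ((a : ↥P₁) : G)) * g₀)⁻¹ * x ^ n *
            ((((w ^ j : ↥P₁) : G) * ((a : ↥P₁) : G)) * g₀) := by group
      rw [e1, hkill _ n hn hdvd' (by
        rw [← e1, ← hcoeconj j n a]
        exact (hSt₂mem _).mp hmem), hkill _ n hn hdvd' (by
        rw [← hcoeconj j n a]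
        exact hcS _), inv_one, mul_one]
    -- the maximal subgroup of `W`
    obtain ⟨W₀, hW₀def⟩ : ∃ W₀ : Subgroup ↥W, W₀ = (D₂.map P₁.subtype).subgroupOf W := ⟨_, rfl⟩
    have hW₀mem : ∀ u : ↥W, u ∈ W₀ ↔ ∃ hu : (u : G) ∈ P₁, (⟨(u : G), hu⟩ : ↥P₁) ∈ D₂ := by
      intro u
      rw [hW₀def, Subgroup.mem_subgroupOf]
      constructor
      · rintro ⟨d, hd, hdu⟩
        have hu : (u : G) ∈ P₁ := by
          rw [← hdu]
          exact d.2
        refine ⟨hu, ?_⟩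
        have : (⟨(u : G), hu⟩ : ↥P₁) = d := Subtype.ext hdu.symm
        rw [this]
        exact hd
      · rintro ⟨hu, hd⟩
        exact ⟨⟨_, hu⟩, hd, rfl⟩
    have hW₀coatom : IsCoatom W₀ := by
      constructor
      · intro htop
        apply hwD₂
        have h1 : (⟨(w : G), hwW⟩ : ↥W) ∈ W₀ := by
          rw [htop]
          exact Subgroup.mem_top _
        obtain ⟨hu, hd⟩ := (hW₀mem _).mp h1
        exact hd
      · intro K hK
        rw [eq_top_iff]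
        intro u _
        obtain ⟨k, hkK, hkW₀⟩ := SetLike.exists_of_lt hK
        have hkP : (k : G) ∈ P₁ := hWP₁ k.2
        have hkD : (⟨(k : G), hkP⟩ : ↥P₁) ∉ D₂ := fun hd => hkW₀ ((hW₀mem k).mpr ⟨hkP, hd⟩)
        obtain ⟨j, -, hj⟩ := hdecomp ⟨(k : G), hkP⟩ hkD ⟨(u : G), hWP₁ u.2⟩
        have hmemP : (((k ^ j)⁻¹ * u : ↥W) : G) ∈ P₁ := hWP₁ (SetLike.coe_mem _)
        have h1 : (k ^ j)⁻¹ * u ∈ W₀ := by
          refine (hW₀mem _).mpr ⟨hmemP, ?_⟩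
          have : (⟨(((k ^ j)⁻¹ * u : ↥W) : G), hmemP⟩ : ↥P₁) =
              (⟨(k : G), hkP⟩ ^ j)⁻¹ * ⟨(u : G), hWP₁ u.2⟩ := Subtype.ext (by simp)
          rw [this]
          exact hj
        have h2 : u = k ^ j * ((k ^ j)⁻¹ * u) := by group
        rw [h2]
        exact K.mul_mem (K.pow_mem hkK j) (hK.le h1)
    have hι : ∃ ι : ↥W₀ →* ↥D₂, ∀ u : ↥W₀, (((ι u : ↥D₂) : ↥P₁) : G) = ((u : ↥W) : G) := by
      have hm1 : ∀ u : ↥W₀, ((u : ↥W) : G) ∈ P₁ := fun u => hWP₁ (u : ↥W).2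
      have hm2 : ∀ u : ↥W₀, (⟨((u : ↥W) : G), hm1 u⟩ : ↥P₁) ∈ D₂ := by
        intro u
        obtain ⟨hu, hd⟩ := (hW₀mem (u : ↥W)).mp u.2
        exact hd
      exact ⟨{ toFun := fun u => ⟨⟨((u : ↥W) : G), hm1 u⟩, hm2 u⟩
               map_one' := rfl
               map_mul' := fun a b => rfl }, fun u => rfl⟩
    obtain ⟨ι, hιcoe⟩ := hι
    -- the norm
    have hnorm : ∏ j ∈ Finset.range p, γ ⟨(w ^ j)⁻¹ * x₁ * w ^ j, hmemU j⟩ = 1 := by
      obtain ⟨V, hVdef⟩ : ∃ V : Subgroup ↥P₁, V = (γ.ker.map D₂.subtype).normalCore := ⟨_, rfl⟩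
      haveI hVn : V.Normal := by
        rw [hVdef]
        infer_instance
      have hVmem : ∀ v : ↥P₁, v ∈ V ↔
          ∀ b : ↥P₁, ∃ hb : b * v * b⁻¹ ∈ D₂, γ ⟨b * v * b⁻¹, hb⟩ = 1 := by
        intro v
        rw [hVdef]
        constructor
        · intro hv b
          have hv' : b * v * b⁻¹ ∈ γ.ker.map D₂.subtype := hv b
          obtain ⟨d, hd, hdv⟩ := hv'
          have hb : b * v * b⁻¹ ∈ D₂ := by
            rw [← hdv]
            exact d.2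
          refine ⟨hb, ?_⟩
          have : (⟨b * v * b⁻¹, hb⟩ : ↥D₂) = d := Subtype.ext hdv.symm
          rw [this]
          exact hd
        · intro hv b
          obtain ⟨hb, hγb⟩ := hv b
          exact ⟨⟨_, hb⟩, hγb, rfl⟩
      have hexp : ∀ y ∈ D₂, y ^ p ∈ V := by
        intro y hy
        rw [hVmem]
        intro b
        have hb : b * y * b⁻¹ ∈ D₂ := hD₂n.conj_mem y hy b
        have hb' : b * y ^ p * b⁻¹ ∈ D₂ := by
          rw [← conj_pow]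
          exact D₂.pow_mem hb p
        refine ⟨hb', ?_⟩
        have : (⟨b * y ^ p * b⁻¹, hb'⟩ : ↥D₂) = ⟨b * y * b⁻¹, hb⟩ ^ p :=
          Subtype.ext (by rw [Subgroup.coe_pow]; exact (conj_pow).symm)
        rw [this, map_pow, hγp]
      have hΛ : ∀ v : ↥D₂, (v : ↥P₁) ∈ V → γ v = 1 := by
        intro v hv
        obtain ⟨hb, h1⟩ := (hVmem _).mp hv 1
        have : (⟨1 * (v : ↥P₁) * 1⁻¹, hb⟩ : ↥D₂) = v := Subtype.ext (by simp)
        rwa [this] at h1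
      have hd : ∀ y ∈ D₂, (fun y : ↥P₁ => y⁻¹ * w⁻¹ * y * w)^[p - 1] y ∈ V := by
        intro y hy
        rw [hVmem]
        intro b
        rw [engel_conj' b w (p - 1) y]
        have hy' : b * y * b⁻¹ ∈ D₂ := hD₂n.conj_mem y hy b
        have hE'D₂ : (fun y : ↥P₁ => y⁻¹ * (b * w * b⁻¹)⁻¹ * y * (b * w * b⁻¹))^[p - 1]
            (b * y * b⁻¹) ∈ D₂ := engel_mem_normal D₂ (b * w * b⁻¹) (p - 1) (b * y * b⁻¹) hy'
        refine ⟨hE'D₂, ?_⟩
        have hcoeE := engel_coe P₁ (b * w * b⁻¹) (b * y * b⁻¹) (p - 1)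
        have hw'W : ((b * w * b⁻¹ : ↥P₁) : G) ∈ W := hWconj (b : G) (hP₁S b.2) (w : G) hwW
        have hy'S : ((b * y * b⁻¹ : ↥P₁) : G) ∈ (S : Subgroup G) := hP₁S (SetLike.coe_mem _)
        have hmemW₀ : (fun y : G => y⁻¹ * ((b * w * b⁻¹ : ↥P₁) : G)⁻¹ * y *
            ((b * w * b⁻¹ : ↥P₁) : G))^[p - 1] ((b * y * b⁻¹ : ↥P₁) : G) ∈ W₀.map W.subtype := by
          rw [hW₀def, Subgroup.subgroupOf_map_subtype]
          refine Subgroup.mem_inf.mpr ⟨⟨_, hE'D₂, hcoeE⟩, ?_⟩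
          obtain ⟨m, hm⟩ : ∃ m, p - 1 = m + 1 := ⟨p - 2, by have := hpp.two_le; omega⟩
          rw [hm, Function.iterate_succ_apply']
          have hu := engel_mem_sub (S : Subgroup G) ((b * w * b⁻¹ : ↥P₁) : G)
            ((b * y * b⁻¹ : ↥P₁) : G) (hWS hw'W) hy'S m
          have h1 := hWconj' _ hu _ (W.inv_mem hw'W)
          exact W.mul_mem h1 hw'W
        have hfr := hNS _ hy'S _ hw'W W₀ hW₀coatom hmemW₀
        obtain ⟨u', ⟨u, hu, rfl⟩, hu'⟩ := hfr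
        have hker := Cfsg.Agent.Lib.Helper16.Basic.frattini_le_ker_of_elementary (p := p)
          (γ.comp ι) (fun a b => mul_comm _ _) (fun a => hγp _) hu
        have hιu : ι u = ⟨_, hE'D₂⟩ := by
          apply Subtype.ext
          apply Subtype.ext
          rw [hιcoe u, hcoeE]
          exact hu'
        rw [← hιu]
        exact hker
      have h := conj_norm_eq_one' (p := p) D₂ V hexp w hd γ hΛ 1 le_rfl x₁ hx₁D₂ hmemU
      rw [pow_one] at h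
      exact h
    -- the bijection
    have hqfix : ∀ (y a : ↥D₂), y • (QuotientGroup.mk a : ↥D₂ ⧸ St₂) = QuotientGroup.mk a ↔
        a⁻¹ * y * a ∈ St₂ := fun y a => smul_mk_eq_iff St₂ y a
    have hcoe1 : ∀ (j : ℕ) (a : ↥D₂),
        (((a⁻¹ * (⟨(w ^ j)⁻¹ * x₁ * w ^ j, hmemU j⟩ : ↥D₂) * a : ↥D₂) : ↥P₁) : G) =
          (((w ^ j : ↥P₁) : G) * ((a : ↥P₁) : G))⁻¹ * x *
            (((w ^ j : ↥P₁) : G) * ((a : ↥P₁) : G)) := by
      intro j a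
      have h1 := hcoeconj j 1 a
      rw [pow_one, pow_one] at h1
      exact h1
    have hkeyfix : ∀ (j : ℕ) (a : ↥D₂),
        x • (((w ^ j * (a : ↥P₁) : ↥P₁) : G) • ω₀) = ((w ^ j * (a : ↥P₁) : ↥P₁) : G) • ω₀ ↔
          a⁻¹ * ⟨(w ^ j)⁻¹ * x₁ * w ^ j, hmemU j⟩ * a ∈ St₂ := by
      intro j a
      rw [hSt₂mem, hfixc, hcoe1, Subgroup.coe_mul]
      have e : g₀⁻¹ * ((((w ^ j : ↥P₁) : G) * ((a : ↥P₁) : G))⁻¹ * x *
          (((w ^ j : ↥P₁) : G) * ((a : ↥P₁) : G))) * g₀ =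
          ((((w ^ j : ↥P₁) : G) * ((a : ↥P₁) : G)) * g₀)⁻¹ * x *
            ((((w ^ j : ↥P₁) : G) * ((a : ↥P₁) : G)) * g₀) := by group
      rw [e]
    have hmem_s : ∀ jr : (_ : ℕ) × (↥D₂ ⧸ St₂),
        jr ∈ (Finset.range p).sigma (fun j => Finset.univ.filter (fun r : ↥D₂ ⧸ St₂ =>
          (⟨(w ^ j)⁻¹ * x₁ * w ^ j, hmemU j⟩ : ↥D₂) • r = r)) ↔
        jr.1 < p ∧ (⟨(w ^ jr.1)⁻¹ * x₁ * w ^ jr.1, hmemU jr.1⟩ : ↥D₂) • jr.2 = jr.2 := by
      intro jr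
      rw [Finset.mem_sigma, Finset.mem_range, Finset.mem_filter]
      simp
    have hfix_s : ∀ (j : ℕ) (r : ↥D₂ ⧸ St₂),
        (⟨(w ^ j)⁻¹ * x₁ * w ^ j, hmemU j⟩ : ↥D₂) • r = r →
        x • (((w ^ j * ((r.out : ↥D₂) : ↥P₁) : ↥P₁) : G) • ω₀) =
          ((w ^ j * ((r.out : ↥D₂) : ↥P₁) : ↥P₁) : G) • ω₀ := by
      intro j r hr
      rw [hkeyfix j r.out, ← hqfix, QuotientGroup.out_eq']
      exact hr
    refine Eq.trans ?_ hnorm
    rw [Finset.prod_congr rfl (fun j _ => hγy j), Finset.prod_sigma']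
    symm
    refine Finset.prod_bij (fun (jr : (_ : ℕ) × (↥D₂ ⧸ St₂)) _ =>
      ((w ^ jr.1 * ((jr.2.out : ↥D₂) : ↥P₁) : ↥P₁) : G) • ω₀) ?_ ?_ ?_ ?_
    · intro jr hjr
      obtain ⟨hj, hr⟩ := (hmem_s jr).mp hjr
      rw [hclass]
      exact ⟨hfix_s _ _ hr, ⟨w ^ jr.1 * ((jr.2.out : ↥D₂) : ↥P₁), rfl⟩⟩
    · intro jr hjr jr' hjr' heq
      obtain ⟨hj, hr⟩ := (hmem_s jr).mp hjr
      obtain ⟨hj', hr'⟩ := (hmem_s jr').mp hjr'
      obtain ⟨j, r⟩ := jr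
      obtain ⟨j', r'⟩ := jr'
      have heq' : (w ^ j * ((r.out : ↥D₂) : ↥P₁) : ↥P₁) • ω₀ =
          (w ^ j' * ((r'.out : ↥D₂) : ↥P₁) : ↥P₁) • ω₀ := heq
      have h1 : (w ^ j' * ((r'.out : ↥D₂) : ↥P₁))⁻¹ * (w ^ j * ((r.out : ↥D₂) : ↥P₁)) ∈
          MulAction.stabilizer ↥P₁ ω₀ := by
        rw [MulAction.mem_stabilizer_iff, mul_smul, heq', inv_smul_smul]
      have h2 := hStD₂ h1
      have h3 : (w ^ j')⁻¹ * w ^ j ∈ D₂ := by
        have e3 : (w ^ j')⁻¹ * w ^ j = ((r'.out : ↥D₂) : ↥P₁) *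
            ((w ^ j' * ((r'.out : ↥D₂) : ↥P₁))⁻¹ * (w ^ j * ((r.out : ↥D₂) : ↥P₁))) *
              ((r.out : ↥D₂) : ↥P₁)⁻¹ := by group
        rw [e3]
        exact D₂.mul_mem (D₂.mul_mem (r'.out).2 h2) (D₂.inv_mem (r.out).2)
      have hjj := hw_inj j j' hj hj' h3
      subst hjj
      have h4 : (r'.out)⁻¹ * r.out ∈ St₂ := by
        rw [hSt₂iff]
        have e4 : ((((r'.out)⁻¹ * r.out : ↥D₂)) : ↥P₁) =
            (w ^ j * ((r'.out : ↥D₂) : ↥P₁))⁻¹ * (w ^ j * ((r.out : ↥D₂) : ↥P₁)) := by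
          rw [Subgroup.coe_mul, Subgroup.coe_inv]
          group
        rw [e4]
        exact MulAction.mem_stabilizer_iff.mp h1
      have h5 : r' = r := by
        rw [← QuotientGroup.out_eq' r', ← QuotientGroup.out_eq' r, QuotientGroup.eq]
        simpa using h4
      rw [h5]
    · intro ω hω
      obtain ⟨hxω, b, rfl⟩ := (hclass ω).mp hω
      obtain ⟨j, hj, hd⟩ := hdecomp w hwD₂ b
      obtain ⟨s, hs⟩ := QuotientGroup.mk_out_eq_mul St₂ (⟨(w ^ j)⁻¹ * b, hd⟩ : ↥D₂)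
      have hsfix : ((s : ↥D₂) : ↥P₁) • ω₀ = ω₀ := (hSt₂iff _).mp s.2
      have heq : ((w ^ j * (((QuotientGroup.mk (⟨(w ^ j)⁻¹ * b, hd⟩ : ↥D₂) : ↥D₂ ⧸ St₂).out : ↥D₂) :
          ↥P₁) : ↥P₁) : G) • ω₀ = b • ω₀ := by
        rw [hs]
        have e : (w ^ j * (((⟨(w ^ j)⁻¹ * b, hd⟩ : ↥D₂) * (s : ↥D₂) : ↥D₂) : ↥P₁) : ↥P₁) =
            b * ((s : ↥D₂) : ↥P₁) := by
          rw [Subgroup.coe_mul]
          show w ^ j * ((w ^ j)⁻¹ * b * ((s : ↥D₂) : ↥P₁)) = b * ((s : ↥D₂) : ↥P₁)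
          group
        rw [e]
        show (b * ((s : ↥D₂) : ↥P₁)) • ω₀ = b • ω₀
        rw [mul_smul, hsfix]
      refine ⟨⟨j, QuotientGroup.mk (⟨(w ^ j)⁻¹ * b, hd⟩ : ↥D₂)⟩, ?_, heq⟩
      rw [hmem_s]
      refine ⟨hj, ?_⟩
      show (⟨(w ^ j)⁻¹ * x₁ * w ^ j, hmemU j⟩ : ↥D₂) •
        (QuotientGroup.mk (⟨(w ^ j)⁻¹ * b, hd⟩ : ↥D₂) : ↥D₂ ⧸ St₂) = QuotientGroup.mk _
      rw [hqfix, ← hkeyfix j ⟨(w ^ j)⁻¹ * b, hd⟩]
      have e : (w ^ j * ((⟨(w ^ j)⁻¹ * b, hd⟩ : ↥D₂) : ↥P₁) : ↥P₁) = b := by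
        show w ^ j * ((w ^ j)⁻¹ * b) = b
        group
      rw [e]
      exact hxω
    · intro jr hjr
      obtain ⟨hj, hr⟩ := (hmem_s jr).mp hjr
      have hES : ((w ^ jr.1 * ((jr.2.out : ↥D₂) : ↥P₁) : ↥P₁) : G) ∈ (S : Subgroup G) :=
        hP₁S (SetLike.coe_mem _)
      rw [hval _ hES (hfix_s _ _ hr), hθt, hcoe1]
      have hES' : ((w ^ jr.1 : ↥P₁) : G) * ((jr.2.out : ↥P₁) : G) ∈ (S : Subgroup G) := by
        rw [← Subgroup.coe_mul]
        exact hES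
      rw [Subgroup.coe_mul, hχt_conj x _ hxS hES']

end Cfsg.Agent.Lib.Helper12.Singular
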