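import Mathlib
import Cfsg.Prelude.Def_Transfer
import Cfsg.Agent.Lib.Helper12.Singular2

set_option autoImplicit false
set_option maxHeartbeats 1600000

/-! A `p`-group with a singularity has the Sylow `p`-subgroup of `Sym(p²)` as a quotient. -/

namespace Cfsg.Agent.Lib.Helper12.Wreath

open Cfsg.Agent.Lib.Helper12.SylowBasic Cfsg.Agent.Lib.Helper12.EngelFocal
  Cfsg.Agent.Lib.Helper12.Singular
open scoped Pointwise commutatorElement

/-- the chain `D, [D, Q], [D, Q, Q], …` -/
def chainE {Q : Type*} [Group Q] (D : Subgroup Q) : ℕ → Subgroup Q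
  | 0 => D
  | n + 1 => ⁅chainE D n, ⊤⁆

theorem chainE_normal {Q : Type*} [Group Q] (D : Subgroup Q) [hD : D.Normal] (n : ℕ) :
    (chainE D n).Normal := by
  induction n with
  | zero => exact hD
  | succ n ih =>
    haveI := ih
    show (⁅chainE D n, ⊤⁆ : Subgroup Q).Normal
    infer_instance

theorem chainE_succ_le {Q : Type*} [Group Q] (D : Subgroup Q) [hD : D.Normal] (n : ℕ) :
    chainE D (n + 1) ≤ chainE D n := by
  haveI := chainE_normal D n
  exact Subgroup.commutator_le_left _ _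

theorem chainE_anti {Q : Type*} [Group Q] (D : Subgroup Q) [hD : D.Normal] (n k : ℕ) :
    chainE D (n + k) ≤ chainE D n := by
  induction k with
  | zero => exact le_rfl
  | succ k ih => exact (chainE_succ_le D (n + k)).trans ih

theorem chainE_le_lcs {Q : Type*} [Group Q] (D : Subgroup Q) (n : ℕ) :
    chainE D n ≤ Subgroup.lowerCentralSeries (⊤ : Subgroup Q) n := by
  induction n with
  | zero => exact le_top
  | succ n ih => exact Subgroup.commutator_mono ih le_rfl

theorem chainE_stable {Q : Type*} [Group Q] (D : Subgroup Q) (j : ℕ)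
    (h : chainE D (j + 1) = chainE D j) (n : ℕ) : chainE D (j + n) = chainE D j := by
  induction n with
  | zero => rfl
  | succ n ih =>
    show (⁅chainE D (j + n), ⊤⁆ : Subgroup Q) = chainE D j
    rw [ih]
    exact h

theorem lcs_bot_add {Q : Type*} [Group Q] (N : ℕ)
    (h : Subgroup.lowerCentralSeries (⊤ : Subgroup Q) N = ⊥) (k : ℕ) :
    Subgroup.lowerCentralSeries (⊤ : Subgroup Q) (N + k) = ⊥ := by
  induction k with
  | zero => exact h
  | succ k ih =>
    show (⁅Subgroup.lowerCentralSeries (⊤ : Subgroup Q) (N + k), ⊤⁆ : Subgroup Q) = ⊥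
    rw [ih]
    exact Subgroup.commutator_bot_left _

theorem chainE_lt {Q : Type*} [Group Q] [Finite Q] {p : ℕ} [hp : Fact p.Prime]
    (hQ : IsPGroup p Q) (D : Subgroup Q) [hD : D.Normal] (j : ℕ) (hj : chainE D j ≠ ⊥) :
    chainE D (j + 1) < chainE D j := by
  refine lt_of_le_of_ne (chainE_succ_le D j) ?_
  intro heq
  apply hj
  obtain ⟨N, hN⟩ := Subgroup.nilpotent_iff_lowerCentralSeries.mp hQ.isNilpotent
  have h1 := chainE_stable D j heq N
  have h2 := chainE_le_lcs D (j + N)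
  have h3 : Subgroup.lowerCentralSeries (⊤ : Subgroup Q) (j + N) = ⊥ := by
    rw [Nat.add_comm]
    exact lcs_bot_add N hN j
  rw [h1, h3] at h2
  exact le_bot_iff.mp h2

theorem p_mul_card_le {Q : Type*} [Group Q] [Finite Q] {p : ℕ} [hp : Fact p.Prime]
    (hQ : IsPGroup p Q) (H K : Subgroup Q) (hlt : H < K) : p * Nat.card H ≤ Nat.card K := by
  have hpp : p.Prime := hp.out
  obtain ⟨a, ha⟩ := IsPGroup.iff_card.mp (hQ.to_subgroup K)
  obtain ⟨b, hb⟩ := IsPGroup.iff_card.mp (hQ.to_subgroup H)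
  have hdvd := Subgroup.card_dvd_of_le hlt.le
  rw [ha, hb] at hdvd
  have hba : b ≤ a := (Nat.pow_dvd_pow_iff_le_right hpp.one_lt).mp hdvd
  have hne : b ≠ a := by
    intro h
    apply hlt.ne
    exact Subgroup.eq_of_le_of_card_ge hlt.le (by rw [ha, hb, h])
  rw [ha, hb, ← pow_succ']
  exact Nat.pow_le_pow_right hpp.pos (by omega)

theorem map_engel {X Y : Type*} [Group X] [Group Y] (f : X →* Y) (d y : X) (n : ℕ) :
    f ((fun y : X => y⁻¹ * d⁻¹ * y * d)^[n] y) =
      (fun y : Y => y⁻¹ * (f d)⁻¹ * y * f d)^[n] (f y) := by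
  induction n with
  | zero => rfl
  | succ n ih =>
    rw [Function.iterate_succ_apply', Function.iterate_succ_apply', ← ih]
    simp only [map_mul, map_inv]

theorem engel_chain {Q : Type*} [Group Q] (D : Subgroup Q) (z : Q) (j k : ℕ) (y : Q)
    (hy : y ∈ chainE D j) : (fun y : Q => y⁻¹ * z⁻¹ * y * z)^[k] y ∈ chainE D (j + k) := by
  induction k with
  | zero => exact hy
  | succ k ih =>
    rw [Function.iterate_succ_apply']
    have e : ∀ u : Q, u⁻¹ * z⁻¹ * u * z = ⁅u⁻¹, z⁻¹⁆ := by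
      intro u
      rw [commutatorElement_def]
      group
    show _ ∈ (⁅chainE D (j + k), ⊤⁆ : Subgroup Q)
    rw [e]
    exact Subgroup.commutator_mem_commutator (Subgroup.inv_mem _ ih) (Subgroup.mem_top _)

/-- a `p`-group with an abelian-by-cyclic singularity has order at least `p ^ (p + 1)`. -/
theorem card_ge_of_engel {Q : Type*} [Group Q] [Finite Q] {p : ℕ} [hp : Fact p.Prime]
    (hQ : IsPGroup p Q) (D : Subgroup Q) [hDn : D.Normal] (hDtop : D ≠ ⊤)
    (hdec : ∀ t : Q, t ∉ D → ∀ q : Q, ∃ i : ℕ, (t ^ i)⁻¹ * q ∈ D)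
    (x z : Q) (hc : (fun y : Q => y⁻¹ * z⁻¹ * y * z)^[p - 1] x ≠ 1) :
    p ^ (p + 1) ≤ Nat.card Q := by
  have hpp : p.Prime := hp.out
  have hp1 : p - 1 = (p - 2) + 1 := by have := hpp.two_le; omega
  have hcmem : (fun y : Q => y⁻¹ * z⁻¹ * y * z)^[p - 1] x ∈ chainE D (p - 1) := by
    by_cases hx : x ∈ D
    · have := engel_chain D z 0 (p - 1) x hx
      rwa [zero_add] at this
    · obtain ⟨i, hi⟩ := hdec x hx z
      have h1 : x⁻¹ * z⁻¹ * x * z ∈ chainE D 1 := by
        have e : x⁻¹ * z⁻¹ * x * z = ⁅x⁻¹, ((x ^ i)⁻¹ * z)⁻¹⁆ := by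
          rw [commutatorElement_def]
          group
        show _ ∈ (⁅D, ⊤⁆ : Subgroup Q)
        rw [e, Subgroup.commutator_comm]
        exact Subgroup.commutator_mem_commutator (Subgroup.mem_top _) (Subgroup.inv_mem _ hi)
      have h2 := engel_chain D z 1 (p - 2) _ h1
      rw [hp1, Function.iterate_succ_apply]
      have e2 : 1 + (p - 2) = p - 2 + 1 := by omega
      rw [e2] at h2
      exact h2
  have hne : ∀ j : ℕ, j ≤ p - 1 → chainE D j ≠ ⊥ := by
    intro j hj hbot
    apply hc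
    have h1 := chainE_anti D j (p - 1 - j)
    have e : j + (p - 1 - j) = p - 1 := by omega
    rw [e, hbot] at h1
    exact (Subgroup.mem_bot).mp (h1 hcmem)
  have hcard : ∀ j : ℕ, j ≤ p → p ^ j * Nat.card (chainE D j) ≤ Nat.card D := by
    intro j
    induction j with
    | zero => intro _; simp [chainE]
    | succ j ih =>
      intro hj
      have h1 := ih (by omega)
      have h2 := p_mul_card_le hQ _ _ (chainE_lt hQ D j (hne j (by omega)))
      calc p ^ (j + 1) * Nat.card (chainE D (j + 1))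
          = p ^ j * (p * Nat.card (chainE D (j + 1))) := by ring
        _ ≤ p ^ j * Nat.card (chainE D j) := Nat.mul_le_mul_left _ h2
        _ ≤ Nat.card D := h1
  have h3 := hcard p le_rfl
  have h4 : p ^ p ≤ Nat.card D := by
    refine le_trans ?_ h3
    exact Nat.le_mul_of_pos_right _ Nat.card_pos
  have h5 := p_mul_card_le hQ D ⊤ (lt_top_iff_ne_top.mpr hDtop)
  rw [Subgroup.card_top] at h5
  calc p ^ (p + 1) = p * p ^ p := by ring
    _ ≤ p * Nat.card D := Nat.mul_le_mul_left _ h4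
    _ ≤ Nat.card Q := h5

theorem coatom_normal_index {P : Type*} [Group P] [Finite P] {p : ℕ} [hp : Fact p.Prime]
    (hP : IsPGroup p P) (M : Subgroup P) (hM : IsCoatom M) : M.Normal ∧ M.index = p := by
  obtain ⟨K, hMK, hKn, hKidx⟩ := exists_normal_index_p hP M hM.1
  have hKM : K = M := by
    by_contra hne
    have h1 := hM.2 K (lt_of_le_of_ne hMK (Ne.symm hne))
    rw [h1, Subgroup.index_top] at hKidx
    exact hp.out.one_lt.ne hKidx
  rw [← hKM]
  exact ⟨hKn, hKidx⟩

theorem decomp_index_p {P : Type*} [Group P] {p : ℕ} [hp : Fact p.Prime] (M : Subgroup P)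
    [hMn : M.Normal] (hidx : M.index = p) (t : P) (ht : t ∉ M) (q : P) :
    ∃ i : ℕ, (t ^ i)⁻¹ * q ∈ M := by
  have hQcard : Nat.card (P ⧸ M) = p := hidx
  have h1 : (QuotientGroup.mk t : P ⧸ M) ≠ 1 := fun h => ht ((QuotientGroup.eq_one_iff t).mp h)
  obtain ⟨k, hk⟩ := mem_powers_of_prime_card hQcard h1 (g' := (QuotientGroup.mk q : P ⧸ M))
  refine ⟨k, ?_⟩
  rw [← QuotientGroup.eq, QuotientGroup.mk_pow]
  exact hk

/-- a `p`-group with a singularity maps onto a Sylow `p`-subgroup of `Sym(p²)`. -/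
theorem wreath_image {P : Type*} [Group P] [Finite P] {p : ℕ} [hp : Fact p.Prime]
    (hP : IsPGroup p P) (M : Subgroup P) (hM : IsCoatom M) (x z : P)
    (hcM : (fun y : P => y⁻¹ * z⁻¹ * y * z)^[p - 1] x ∈ M)
    (hcF : (fun y : P => y⁻¹ * z⁻¹ * y * z)^[p - 1] x ∉ (frattini ↥M).map M.subtype) :
    ∃ (Psyl : Sylow p (Equiv.Perm (Fin (p ^ 2))))
      (f : P →* ↥(Psyl : Subgroup (Equiv.Perm (Fin (p ^ 2))))), Function.Surjective f := by
  classical
  have hpp : p.Prime := hp.out
  obtain ⟨hMn, hMidx⟩ := coatom_normal_index hP M hM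
  haveI := hMn
  obtain ⟨c, hc⟩ : ∃ c : P, c = (fun y : P => y⁻¹ * z⁻¹ * y * z)^[p - 1] x := ⟨_, rfl⟩
  rw [← hc] at hcM hcF
  have hK₁ : ∃ K₁ : Subgroup ↥M, IsCoatom K₁ ∧ (⟨c, hcM⟩ : ↥M) ∉ K₁ := by
    by_contra hcon
    push_neg at hcon
    apply hcF
    refine ⟨⟨c, hcM⟩, ?_, rfl⟩
    show (⟨c, hcM⟩ : ↥M) ∈ frattini ↥M
    unfold frattini Order.radical
    simp only [Subgroup.mem_iInf]
    intro K₁ hK₁
    exact hcon K₁ hK₁
  obtain ⟨K₁, hK₁co, hcK₁⟩ := hK₁
  obtain ⟨hK₁n, hK₁idx⟩ := coatom_normal_index (hP.to_subgroup M) K₁ hK₁co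
  obtain ⟨K, hK⟩ : ∃ K : Subgroup P, K = K₁.map M.subtype := ⟨_, rfl⟩
  have hKidx : K.index = p ^ 2 := by
    rw [hK, Subgroup.index_map_subtype, hK₁idx, hMidx, sq]
  have hKM : K ≤ M := by
    rw [hK]
    exact Subgroup.map_subtype_le K₁
  have hcK : c ∉ K := by
    rw [hK]
    rintro ⟨u, hu, huc⟩
    apply hcK₁
    have : (⟨c, hcM⟩ : ↥M) = u := Subtype.ext huc.symm
    rw [this]
    exact hu
  obtain ⟨C, hC⟩ : ∃ C : Subgroup P, C = K.normalCore := ⟨_, rfl⟩
  haveI hCn : C.Normal := by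
    rw [hC]
    infer_instance
  have hCK : C ≤ K := by
    rw [hC]
    exact Subgroup.normalCore_le K
  have hcC : c ∉ C := fun h => hcK (hCK h)
  have hcard : p ^ (p + 1) ≤ C.index := by
    haveI hDn : (M.map (QuotientGroup.mk' C)).Normal :=
      Subgroup.Normal.map hMn _ (QuotientGroup.mk'_surjective C)
    have hmemD : ∀ g : P, (QuotientGroup.mk g : P ⧸ C) ∈ M.map (QuotientGroup.mk' C) ↔ g ∈ M := by
      intro g
      constructor
      · rintro ⟨m, hm, hmg⟩
        have h1 : m⁻¹ * g ∈ C := QuotientGroup.eq.mp hmg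
        have e : g = m * (m⁻¹ * g) := by group
        rw [e]
        exact M.mul_mem hm (hKM (hCK h1))
      · intro hg
        exact ⟨g, hg, rfl⟩
    have h := card_ge_of_engel (hP.to_quotient C) (M.map (QuotientGroup.mk' C))
      (by
        intro htop
        obtain ⟨g, -, hg⟩ := SetLike.exists_of_lt (lt_top_iff_ne_top.mpr hM.1)
        apply hg
        rw [← hmemD, htop]
        exact Subgroup.mem_top _)
      (by
        intro t ht q
        induction t using QuotientGroup.induction_on with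
        | H t =>
          induction q using QuotientGroup.induction_on with
          | H q =>
            have ht' : t ∉ M := fun h => ht ((hmemD t).mpr h)
            obtain ⟨i, hi⟩ := decomp_index_p M hMidx t ht' q
            exact ⟨i, (hmemD _).mpr hi⟩)
      (QuotientGroup.mk x) (QuotientGroup.mk z)
      (by
        have h1 := map_engel (QuotientGroup.mk' C) z x (p - 1)
        intro h2
        apply hcC
        rw [hc, ← QuotientGroup.eq_one_iff]
        exact h1.trans h2)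
    exact h
  haveI : Fintype (P ⧸ K) := Fintype.ofFinite _
  have hcardΩ : Fintype.card (P ⧸ K) = p ^ 2 := by
    rw [← Nat.card_eq_fintype_card]
    exact hKidx
  obtain ⟨φ, hφ⟩ : ∃ φ : P →* Equiv.Perm (Fin (p ^ 2)),
      φ = (Equiv.permCongrHom (Fintype.equivFinOfCardEq hcardΩ)).toMonoidHom.comp
        (MulAction.toPermHom P (P ⧸ K)) := ⟨_, rfl⟩
  have hker : φ.ker = C := by
    rw [hC, Subgroup.normalCore_eq_ker, hφ]
    ext g
    simp only [MonoidHom.mem_ker, MonoidHom.comp_apply, MulEquiv.coe_toMonoidHom,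
      MulEquiv.map_eq_one_iff]
  have hrange : Nat.card ↥φ.range = C.index := by
    rw [← hker, Subgroup.index_ker]
  have hfact : (Nat.card (Equiv.Perm (Fin (p ^ 2)))).factorization p = p + 1 := by
    rw [Nat.card_perm, Nat.card_eq_fintype_card, Fintype.card_fin, sq,
      Nat.factorization_factorial_mul hpp]
    have h1 := Nat.factorization_factorial_mul (n := 1) hpp
    rw [mul_one] at h1
    rw [h1]
    simp
    omega
  have hcard_eq : Nat.card ↥φ.range = p ^ (p + 1) := by
    obtain ⟨n, hn⟩ := IsPGroup.iff_card.mp hP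
    have h1 : Nat.card ↥φ.range ∣ p ^ n := hn ▸ Subgroup.card_range_dvd φ
    obtain ⟨k, -, hk⟩ := (Nat.dvd_prime_pow hpp).mp h1
    have h2 : p ^ k ∣ Nat.card (Equiv.Perm (Fin (p ^ 2))) :=
      hk ▸ Subgroup.card_subgroup_dvd_card φ.range
    have h3 : k ≤ p + 1 := by
      rw [← hfact]
      exact (hpp.pow_dvd_iff_le_factorization Nat.card_pos.ne').mp h2
    have h4 : p ^ (p + 1) ≤ p ^ k := by
      rw [← hk, hrange]
      exact hcard
    have h5 : p + 1 ≤ k := (Nat.pow_le_pow_iff_right hpp.one_lt).mp h4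
    rw [hk, le_antisymm h3 h5]
  exact ⟨Sylow.ofCard φ.range (by rw [hcard_eq, hfact]), φ.rangeRestrict,
    φ.rangeRestrict_surjective⟩

/-- **Yoshida's transfer theorem** (singularity form): if `N_G(S)` does not control transfer, the
Sylow `p`-subgroup `S` maps onto a Sylow `p`-subgroup of `Sym(p²)`. -/
theorem yoshida {G : Type*} [Group G] [Finite G] {p : ℕ} [hp : Fact p.Prime] (S : Sylow p G)
    (h : (S : Subgroup G) ⊓ commutator G ≠ (S : Subgroup G) ⊓
      ⁅Subgroup.normalizer ((S : Subgroup G) : Set G),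
        Subgroup.normalizer ((S : Subgroup G) : Set G)⁆) :
    ∃ (P : Sylow p (Equiv.Perm (Fin (p ^ 2))))
      (f : ↥(S : Subgroup G) →* ↥(P : Subgroup (Equiv.Perm (Fin (p ^ 2))))),
      Function.Surjective f := by
  have hwc : Cfsg.IsWeaklyClosed (S : Subgroup G) (S : Subgroup G) := by
    refine ⟨le_rfl, fun g hg => ?_⟩
    exact Subgroup.eq_of_le_of_card_ge hg
      (by rw [Subgroup.card_map_of_injective (MulAut.conj g).injective])
  obtain ⟨x, hx, z, hz, S₀, hS₀, hc1, hc2⟩ := main S (S : Subgroup G) hwc h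
  have hcoe := engel_coe (S : Subgroup G) ⟨z, hz⟩ ⟨x, hx⟩ (p - 1)
  apply wreath_image S.isPGroup' S₀ hS₀ ⟨x, hx⟩ ⟨z, hz⟩
  · obtain ⟨u, hu, huc⟩ := hc1
    have : (fun y : ↥(S : Subgroup G) =>
        y⁻¹ * (⟨z, hz⟩ : ↥(S : Subgroup G))⁻¹ * y * ⟨z, hz⟩)^[p - 1] ⟨x, hx⟩ = u :=
      Subtype.ext (hcoe.trans huc.symm)
    rw [this]
    exact hu
  · intro hmem
    apply hc2
    exact ⟨_, hmem, hcoe⟩

end Cfsg.Agent.Lib.Helper12.Wreath
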